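import Cfsg.Agent.GeomClasses.SpCases.NotFull
import Cfsg.Agent.GeomClasses.SympStructure

/-! # Dimension facts for the classes of subgroups of symplectic groups -/

set_option autoImplicit false
set_option linter.unusedSectionVars false

namespace Cfsg.Agent.GeomClasses.SpCases

open Matrix Cfsg.Geo Cfsg.Agent.Forms

variable {F : Type*} [Field F] {m : ℕ}

local notation "V" => (Fin m ⊕ Fin m → F)
local notation "Mx" => Matrix (Fin m ⊕ Fin m) (Fin m ⊕ Fin m) F
local notation "BB" => sympB m F

theorem finrank_V : Module.finrank F V = 2 * m := by simp; omega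

theorem ne_top_of_ts (hm : 0 < m) {W : Submodule F V} (h : IsTotallySingularFor (Cfsg.sympForm m F) W) : W ≠ ⊤ := by
  rintro rfl
  obtain ⟨v, hv⟩ := exists_one (m := m) (F := F) (x := Pi.single (Sum.inl ⟨0, hm⟩) 1) (by simp)
  rw [sympB_apply, h _ trivial _ trivial] at hv
  exact zero_ne_one hv

theorem even_nd [Fintype F] {W : Submodule F V} (h : IsNondegenerateOn (Cfsg.sympForm m F) W) : Even (Module.finrank F W) := by
  refine SympStructure.nd_even (B := BB) sympB_isAlt fun w hw hx => ?_
  by_contra h0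
  obtain ⟨x, hx', hne⟩ := (h w hw h0).2
  exact hne (by rw [← sympB_apply]; exact hx x hx')

theorem card_decomp {t k : ℕ} {D : Fin t → Submodule F V} (hD : IsMDecomposition k D) : t * k = 2 * m := by
  classical
  have hint : DirectSum.IsInternal D := (DirectSum.isInternal_submodule_iff_iSupIndep_and_iSup_eq_top D).mpr ⟨hD.indep, hD.iSup_eq_top⟩
  let b := hint.collectedBasis fun i => Module.finBasisOfFinrankEq F (D i) (hD.finrank_eq i)
  have h := Module.finrank_eq_card_basis b
  rw [finrank_V, Fintype.card_sigma] at h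
  simpa using h.symm

/-- A field of self-adjoint matrices has degree dividing half the dimension. -/
theorem dvd_of_selfAdjoint [Fintype F] {r : ℕ} {K : Subalgebra F Mx} (hK : IsFieldSubalgebra r K)
    (hsa : IsSelfAdjointFor (Cfsg.sympForm m F) K) (halt : ∀ k ∈ K, ∀ v, Cfsg.sympForm m F (k *ᵥ v) v = 0) : r ∣ m := by
  classical
  have hsa' : ∀ k ∈ K, ∀ u v : V, BB (k *ᵥ u) v = BB u (k *ᵥ v) := fun k hk u v => by
    simpa [sympB_apply] using hsa k hk u v
  have halt' : ∀ k ∈ K, ∀ v : V, BB (k *ᵥ v) v = 0 := fun k hk v => by simpa [sympB_apply] using halt k hk v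
  let P : Submodule F V → Prop := fun L =>
    (∀ k ∈ K, ∀ x ∈ L, k *ᵥ x ∈ L) ∧ L ≤ perp BB L ∧ r ∣ Module.finrank F L
  haveI : Finite (Submodule F V) :=
    Finite.of_injective (fun W : Submodule F V => (W : Set V)) SetLike.coe_injective
  obtain ⟨L, ⟨hinv, hiso, hdvd⟩, hmax⟩ := exists_maximal_of_wellFoundedGT P
    ⟨⊥, fun k _ x hx => by rw [(Submodule.mem_bot F).mp hx, Matrix.mulVec_zero]; exact zero_mem _, bot_le,
      by rw [finrank_bot]; exact dvd_zero r⟩
  have heq : perp BB L ≤ L := by
    intro v hv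
    by_contra hvL
    let φ : K →ₗ[F] V :=
      { toFun := fun k => (k : Mx) *ᵥ v
        map_add' := fun a b => Matrix.add_mulVec _ _ _
        map_smul' := fun c a => Matrix.smul_mulVec c _ _ }
    have hfree : ∀ k : K, φ k ∈ L → k = 0 := by
      intro k hk
      by_contra hk0
      obtain ⟨y, hy, hky⟩ := hK.inv k k.2 fun h => hk0 (Subtype.ext h)
      refine hvL ?_
      have h1 := hinv y hy _ hk
      show v ∈ L
      rw [show φ k = (k : Mx) *ᵥ v from rfl, Matrix.mulVec_mulVec, ← hK.comm k k.2 y hy, hky, Matrix.one_mulVec] at h1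
      exact h1
    have hinj : Function.Injective φ := LinearMap.ker_eq_bot.mp (LinearMap.ker_eq_bot'.mpr fun k hk => hfree k (by
      rw [hk]; exact zero_mem L))
    have hLR : ∀ x ∈ L, ∀ k : K, BB x (φ k) = 0 := fun x hx k => by
      show BB x ((k : Mx) *ᵥ v) = 0
      rw [← hsa' k k.2]
      exact hv _ (hinv k k.2 x hx)
    set L' := L ⊔ LinearMap.range φ
    have hP : P L' := by
      refine ⟨fun k hk x hx => ?_, fun x hx y hy => ?_, ?_⟩
      · obtain ⟨a, ha, b, ⟨k', rfl⟩, rfl⟩ := Submodule.mem_sup.mp hx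
        rw [Matrix.mulVec_add]
        refine Submodule.add_mem_sup (hinv k hk a ha) ⟨⟨k * (k' : Mx), mul_mem hk k'.2⟩, ?_⟩
        exact (Matrix.mulVec_mulVec v k (k' : Mx)).symm
      · obtain ⟨a, ha, b, ⟨i, rfl⟩, rfl⟩ := Submodule.mem_sup.mp hy
        obtain ⟨c, hc, d, ⟨j, rfl⟩, rfl⟩ := Submodule.mem_sup.mp hx
        have h1 : BB a c = 0 := hiso hc a ha
        have h2 : BB (φ i) c = 0 := by rw [sympB_skew, hLR c hc i, neg_zero]
        have h3 : BB (φ i) (φ j) = 0 := by
          show BB ((i : Mx) *ᵥ v) ((j : Mx) *ᵥ v) = 0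
          rw [← hsa' j j.2, Matrix.mulVec_mulVec]
          exact halt' _ (mul_mem j.2 i.2) v
        simp only [map_add, LinearMap.add_apply, h1, h2, h3, hLR a ha j, add_zero]
      · have h1 := Submodule.finrank_sup_add_finrank_inf_eq L (LinearMap.range φ)
        have h2 : L ⊓ LinearMap.range φ = ⊥ := eq_bot_iff.mpr fun x hx => by
          obtain ⟨k, rfl⟩ := hx.2
          rw [hfree k hx.1, map_zero]
          exact zero_mem _
        rw [h2, finrank_bot, add_zero, LinearMap.finrank_range_of_inj hinj, hK.finrank_eq] at h1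
        show r ∣ Module.finrank F L'
        rw [h1]
        exact dvd_add hdvd dvd_rfl
    have hv' : v ∈ L' := Submodule.mem_sup_right ⟨1, Matrix.one_mulVec v⟩
    exact hvL (hmax hP le_sup_left hv')
  have h1 := (isForm_symp (F := F) (m := m)).finrank_perp L
  rw [le_antisymm heq hiso, finrank_V] at h1
  rwa [show m = Module.finrank F L by omega]

end Cfsg.Agent.GeomClasses.SpCases
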