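import Cfsg.Agent.GeomClasses.SpCases.Tensor
import Cfsg.Agent.GeomClasses.Aschbacher.Rel.SpMain
import Cfsg.Agent.GeomClasses.MaxList.NotContain

/-! # The kinds of maximal subgroups of a symplectic group -/

set_option autoImplicit false
set_option linter.unusedSectionVars false

namespace Cfsg.Agent.GeomClasses.SpCases

open Matrix Cfsg.Geo Cfsg.Agent.Forms Cfsg.Agent.GeomClasses

variable {F : Type*} [Field F] [Fintype F] {m : ℕ}

local notation "V" => (Fin m ⊕ Fin m → F)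
local notation "Mx" => Matrix (Fin m ⊕ Fin m) (Fin m ⊕ Fin m) F
local notation "GLV" => GL (Fin m ⊕ Fin m) F
local notation "fm" => Cfsg.sympForm m F
local notation "Sp" => Cfsg.spGL m F

theorem five_le_of_odd (hq : Odd (Fintype.card F)) (h3 : Fintype.card F ≠ 3) : 5 ≤ Fintype.card F := by
  have := Fintype.one_lt_card (α := F)
  obtain ⟨s, hs⟩ := hq
  omega

theorem three_le_of_ne_two (h2 : Fintype.card F ≠ 2) : 3 ≤ Fintype.card F := by
  have := Fintype.one_lt_card (α := F)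
  omega

/-- A maximal subgroup is geometric of one of eleven kinds or lies in the residual class. -/
theorem sp_cases (hm : 2 ≤ m) {H : Subgroup GLV} (hH : IsMaximalIn Sp H) :
    (∃ W : Submodule F V, W ≠ ⊥ ∧ IsTotallySingularFor fm W ∧ H = subspaceStabilizer W ⊓ Sp) ∨
    (∃ W : Submodule F V, W ≠ ⊥ ∧ IsNondegenerateOn fm W ∧ Module.finrank F W < m ∧ 2 ≤ Module.finrank F W ∧
      H = subspaceStabilizer W ⊓ Sp) ∨
    (∃ (t k : ℕ) (D : Fin t → Submodule F V), IsNondegenerateMDecomposition fm k D ∧ 2 ≤ t ∧ 0 < k ∧ Even k ∧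
      t * k = 2 * m ∧ H = decompositionStabilizer D ⊓ Sp) ∨
    (Odd (Fintype.card F) ∧ ∃ D : Fin 2 → Submodule F V, IsMDecomposition m D ∧
      (∀ i, IsTotallySingularFor fm (D i)) ∧ H = decompositionStabilizer D ⊓ Sp) ∨
    (∃ (r : ℕ) (K : Subalgebra F Mx), r.Prime ∧ r ∣ m ∧ IsFieldSubalgebra r K ∧ IsSelfAdjointFor fm K ∧
      (∀ k ∈ K, ∀ v, fm (k *ᵥ v) v = 0) ∧ H = subalgebraNormalizer K ⊓ Sp) ∨
    (Odd (Fintype.card F) ∧ ∃ K : Subalgebra F Mx, IsFieldSubalgebra 2 K ∧ IsAdjointClosedFor fm K ∧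
      ¬ IsSelfAdjointFor fm K ∧ H = subalgebraNormalizer K ⊓ Sp) ∨
    (Odd (Fintype.card F) ∧ ∃ (n₁ n₂ : ℕ) (e : (Fin m ⊕ Fin m) ≃ Fin n₁ × Fin n₂) (P : GLV)
      (f₁ : (Fin n₁ → F) → (Fin n₁ → F) → F) (f₂ : (Fin n₂ → F) → (Fin n₂ → F) → F),
      2 ≤ n₁ ∧ 3 ≤ n₂ ∧ Even n₁ ∧ n₁ * n₂ = 2 * m ∧ IsSymplecticForm f₁ ∧ IsSymmetricForm f₂ ∧
      IsTensorFormStructure id fm f₁ f₂ e P ∧ H = tensorProductSubgroup n₁ n₂ e P ⊓ Sp) ∨
    (∃ (F₀ : Subfield F) (r : ℕ) (P : GLV) (ζ : F), r.Prime ∧ Fintype.card F = Nat.card F₀ ^ r ∧ ζ ≠ 0 ∧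
      IsFormRationalStructure fm F₀ ζ P ∧ H = subfieldSubgroup F₀ P ⊓ Sp) ∨
    (¬ Odd (Fintype.card F) ∧ ∃ Q : V → F, IsNondegenerateQuadraticForm Q ∧
      (∀ u v, QuadraticMap.polar Q u v = fm u v) ∧ H = quadSimilarityGroup Q ⊓ Sp) ∨
    (∃ (R : Subgroup GLV) (p k : ℕ), IsSymplecticTypeGroup 2 R ∧ ActsAbsolutelyIrreducibly (matrixSet R) ∧
      R ≤ similarityGroup fm ∧ p.Prime ∧ Odd p ∧ Fintype.card F = p ∧ Nat.card R = 2 ^ (1 + 2 * k) ∧
      Nat.card (Subgroup.center R) = 2 ∧ IsOfMinusType k R ∧ H ≤ subgroupNormalizer R) ∨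
    (∃ (k t : ℕ) (e : (Fin m ⊕ Fin m) ≃ (Fin t → Fin k)) (P : GLV) (f₁ : (Fin k → F) → (Fin k → F) → F),
      Odd (Fintype.card F) ∧ Odd t ∧ 3 ≤ t ∧ 2 ≤ k ∧ Even k ∧ k ^ t = 2 * m ∧ ¬ (Fintype.card F = 3 ∧ k = 2) ∧
      IsSymplecticForm f₁ ∧ IsTensorPowerFormStructure id fm f₁ e P ∧ H ≤ tensorWreathSubgroup k t e P) ∨
    InSymplecticResidualClass H := by
  have hev : ∀ {d : ℕ} {f : (Fin d → F) → (Fin d → F) → F}, IsSymplecticForm f → Even d := by
    intro d f hf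
    let B : LinearMap.BilinForm F (Fin d → F) := LinearMap.mk₂ F f hf.bilinear.add_left
      (fun c x v => hf.bilinear.smul_left c x v) hf.bilinear.add_right (fun c v x => hf.bilinear.smul_right c v x)
    have h := SympStructure.nd_even (B := B) (W := ⊤) hf.alternating fun w _ hw => by
      by_contra h0
      obtain ⟨x, hx⟩ := (hf.nondegenerate w h0).2
      exact hx (hw x trivial)
    rwa [finrank_top, Module.finrank_fin_fun] at h
  rcases AschRel.sp_structure hm H hH.1.le with ⟨M, hM, hle⟩ | hres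
  swap
  · iterate 11 right
    exact hres
  rcases hM with (⟨W, h0, hW, rfl⟩ | ⟨W, h0, hW, hd, rfl⟩ | ⟨t, k, D, hD, rfl⟩ | ⟨D, hq, hD, hts, rfl⟩ |
    ⟨F₀, r, P, ζ, hr, hc, hζ, hR, rfl⟩ | ⟨R, p, k, h1, h2, h3, h4, h5, h6, h7, h8, h9, rfl⟩ | ⟨Q, hq, hQ, hpol, rfl⟩) |
    ⟨r, K, hr, hK, hsa, halt, rfl⟩ | ⟨K, hq, hK, hcl, hnsa, rfl⟩ | ⟨n₁, n₂, e, P, f₁, f₂, hq, h3, hf₁, hf₂, hT, rfl⟩ |
    ⟨k, t, e, P, f₁, hq, ht, ht3, hex, hf₁, hT, rfl⟩
  · exact Or.inl ⟨W, h0, hW, MaxList.eq_of_le hH (hle.trans inf_le_left) (stab_not_full h0 (ne_top_of_ts (by omega) hW))⟩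
  · right; left
    have h1 : W ≠ ⊤ := fun h => by
      subst h
      rw [finrank_top, finrank_V] at hd
      omega
    refine ⟨W, h0, hW, hd, ?_, MaxList.eq_of_le hH (hle.trans inf_le_left) (stab_not_full h0 h1)⟩
    obtain ⟨s, hs⟩ := even_nd hW
    have := Submodule.one_le_finrank_iff.mpr h0
    omega
  · iterate 2 right
    left
    have hk : Even k := by
      have := even_nd (hD.nondegenerate ⟨0, by have := hD.decomp.two_le; omega⟩)
      rwa [hD.decomp.finrank_eq] at this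
    exact ⟨t, k, D, hD, hD.decomp.two_le, hD.decomp.pos, hk, card_decomp hD.decomp,
      MaxList.eq_of_le hH (hle.trans inf_le_left) (decomp_not_full hD.decomp)⟩
  · iterate 3 right
    left
    exact ⟨hq, D, hD, hts, MaxList.eq_of_le hH (hle.trans inf_le_left) (decomp_not_full hD)⟩
  · iterate 7 right
    left
    exact ⟨F₀, r, P, ζ, hr, hc, hζ, hR, MaxList.eq_of_le hH (hle.trans inf_le_left) (subfield_not_full hm hr hc P)⟩
  · iterate 9 right
    left
    exact ⟨R, p, k, h1, h2, h3, h4, h5, h6, h7, h8, h9, hle.trans inf_le_left⟩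
  · iterate 8 right
    left
    exact ⟨hq, Q, hQ, hpol, MaxList.eq_of_le hH (hle.trans inf_le_left) (quad_not_full hm hq hQ.smul hpol)⟩
  · iterate 4 right
    left
    exact ⟨r, K, hr, dvd_of_selfAdjoint hK hsa halt, hK, hsa, halt,
      MaxList.eq_of_le hH (hle.trans inf_le_left) (field_not_full hm hr.two_le hK)⟩
  · iterate 5 right
    left
    exact ⟨hq, K, hK, hcl, hnsa, MaxList.eq_of_le hH (hle.trans inf_le_left) (field_not_full hm le_rfl hK)⟩
  · iterate 6 right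
    left
    have hcard : n₁ * n₂ = 2 * m := by
      have h := Fintype.card_congr e
      simp only [Fintype.card_sum, Fintype.card_fin, Fintype.card_prod] at h
      omega
    have he := hev hf₁
    have hn₁ : 2 ≤ n₁ := by
      obtain ⟨s, rfl⟩ := he
      rcases Nat.eq_zero_or_pos s with rfl | hs
      · simp at hcard; omega
      · omega
    exact ⟨hq, n₁, n₂, e, P, f₁, f₂, hn₁, h3, he, hcard, hf₁, hf₂, hT,
      MaxList.eq_of_le hH (hle.trans inf_le_left) (tensor_not_full hn₁ (by omega) hf₁ hf₂ hT)⟩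
  · iterate 10 right
    left
    have hcard : k ^ t = 2 * m := by
      have h := Fintype.card_congr e
      simp only [Fintype.card_sum, Fintype.card_fin, Fintype.card_fun] at h
      omega
    have he := hev hf₁
    have hk : 2 ≤ k := by
      obtain ⟨s, rfl⟩ := he
      rcases Nat.eq_zero_or_pos s with rfl | hs
      · rw [Nat.zero_pow (by omega)] at hcard; omega
      · omega
    exact ⟨k, t, e, P, f₁, hq, ht, ht3, hk, he, hcard, hex, hf₁, hT, hle.trans inf_le_left⟩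

end Cfsg.Agent.GeomClasses.SpCases
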