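import Cfsg.Agent.GeomClasses.SpCases.Planes

/-! # Tensor decompositions of an eight-dimensional symplectic space -/

set_option autoImplicit false
set_option linter.unusedSectionVars false

namespace Cfsg.Agent.GeomClasses.SpCases

open Matrix Cfsg.Geo Cfsg.Agent.Forms Cfsg.Agent.GeomClasses Cfsg.Agent.GeomClasses.TensorFrame

variable {F : Type*} [Field F] [Fintype F] {m : ℕ}

local notation "V" => (Fin m ⊕ Fin m → F)
local notation "Mx" => Matrix (Fin m ⊕ Fin m) (Fin m ⊕ Fin m) F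
local notation "GLV" => GL (Fin m ⊕ Fin m) F
local notation "fm" => Cfsg.sympForm m F
local notation "BB" => sympB m F

/-- The elements mapping a set of vectors into itself. -/
noncomputable def setStab (S : Set V) : Subgroup GLV where
  carrier := {g | ∀ v ∈ S, (g : Mx) *ᵥ v ∈ S}
  one_mem' := fun v hv => by rwa [Units.val_one, Matrix.one_mulVec]
  mul_mem' := fun {a b} ha hb v hv => by rw [Units.val_mul, ← Matrix.mulVec_mulVec]; exact ha _ (hb v hv)
  inv_mem' := fun {a} ha => by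
    classical
    have hpow : ∀ n : ℕ, ∀ v ∈ S, ((a ^ n : GLV) : Mx) *ᵥ v ∈ S := by
      intro n
      induction n with
      | zero => intro v hv; rwa [pow_zero, Units.val_one, Matrix.one_mulVec]
      | succ n ih => intro v hv; rw [pow_succ', Units.val_mul, ← Matrix.mulVec_mulVec]; exact ha _ (ih v hv)
    intro v hv
    have h : a⁻¹ = a ^ (orderOf a - 1) := inv_eq_of_mul_eq_one_right (by
      rw [← pow_succ', Nat.sub_add_cancel (orderOf_pos a), pow_orderOf_eq_one])
    show ((a⁻¹ : GLV) : Mx) *ᵥ v ∈ S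
    rw [h]
    exact hpow _ v hv

theorem apply_single {t k : ℕ} (G : (Fin t → Fin k) → (Fin t → Fin k) → F) (a b : Fin t → Fin k) :
    (∑ x, ∑ y, (Pi.single a (1 : F) : (Fin t → Fin k) → F) x * G x y * (Pi.single b (1 : F) : (Fin t → Fin k) → F) y) =
      G a b := by
  classical
  rw [Finset.sum_eq_single a (fun x _ hx => Finset.sum_eq_zero fun y _ => by simp [hx]) (by simp),
    Finset.sum_eq_single b (fun y _ hy => by simp [hy]) (by simp)]
  simp

theorem wreath_not_full {e : (Fin m ⊕ Fin m) ≃ (Fin 3 → Fin 2)} {P : GLV}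
    {f₁ : (Fin 2 → F) → (Fin 2 → F) → F} (hf₁ : IsSymplecticForm f₁)
    (hT : IsTensorPowerFormStructure id fm f₁ e P) : ¬ Cfsg.spGL m F ≤ tensorWreathSubgroup 2 3 e P := by
  classical
  intro hle
  obtain ⟨c, hc, hform⟩ := hT
  let T : ((Fin 3 → Fin 2) → F) → V := fun z => (P : Mx) *ᵥ (z ∘ e)
  have hTinj : Function.Injective T := fun z z' h => by
    have h1 := congrArg (((P⁻¹ : GLV) : Mx) *ᵥ ·) h
    simp only [T, Matrix.mulVec_mulVec, Units.inv_mul, Matrix.one_mulVec] at h1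
    funext i
    simpa using congrFun h1 (e.symm i)
  let S : Set V := {v | ∃ x : Fin 3 → Fin 2 → F, v = T fun a => ∏ i, x i (a i)}
  have hS : tensorWreathSubgroup 2 3 e P ≤ setStab S := by
    rintro g ⟨g', ⟨g₀, hg₀, rfl⟩, rfl⟩
    have hact : ∀ (g₀ : GL (Fin 3 → Fin 2) F) z, ((P * glReindex e.symm g₀ * P⁻¹ : GLV) : Mx) *ᵥ T z =
        T ((g₀ : Matrix _ _ F) *ᵥ z) := fun g₀ z => by
      show _ *ᵥ ((P : Mx) *ᵥ (z ∘ e)) = (P : Mx) *ᵥ _
      rw [Units.val_mul, Units.val_mul, Matrix.mulVec_mulVec, mul_assoc, ← Units.val_mul P⁻¹ P, inv_mul_cancel,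
        Units.val_one, mul_one, ← Matrix.mulVec_mulVec]
      congr 1
      show ((g₀ : Matrix _ _ F).submatrix e e) *ᵥ (z ∘ e) = _
      rw [Matrix.submatrix_mulVec_equiv]
      simp [Function.comp_assoc]
    have key : tensorWreathStandard 2 3 F ≤ (setStab S).comap
        ((MulAut.conj P).toMonoidHom.comp (glReindex e.symm).toMonoidHom) := by
      refine (Subgroup.closure_le _).mpr ?_
      rintro h (⟨gs, hgs⟩ | ⟨σ, hσ⟩) v ⟨x, rfl⟩
      · refine ⟨fun i => (gs i : Matrix (Fin 2) (Fin 2) F) *ᵥ x i, ?_⟩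
        show ((P * glReindex e.symm h * P⁻¹ : GLV) : Mx) *ᵥ _ = _
        rw [hact]
        congr 1
        funext a
        simp only [Matrix.mulVec, dotProduct, hgs, ← Finset.prod_mul_distrib]
        exact (Fintype.prod_sum (fun i b => (gs i : Matrix (Fin 2) (Fin 2) F) (a i) b * x i b)).symm
      · refine ⟨fun j => x (σ.symm j), ?_⟩
        show ((P * glReindex e.symm h * P⁻¹ : GLV) : Mx) *ᵥ _ = _
        rw [hact]
        congr 1
        funext a
        simp only [Matrix.mulVec, dotProduct, hσ, ite_mul, one_mul, zero_mul, Finset.sum_ite_eq', Finset.mem_univ, if_true]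
        rw [← Equiv.prod_comp σ (fun j => x (σ.symm j) (a j))]
        simp
    exact key hg₀
  let z0 : (Fin 3 → Fin 2) → F := Pi.single (fun _ => 0) 1
  let z1 : (Fin 3 → Fin 2) → F := Pi.single (fun _ => 1) 1
  set G := gramMatrix f₁
  have hG : G 0 1 ≠ 0 := by
    intro h0
    obtain ⟨x, hx⟩ := (hf₁.nondegenerate (Pi.single 0 1) (by simp)).2
    refine hx ?_
    have e1 : x = x 0 • (Pi.single 0 (1 : F) : Fin 2 → F) + x 1 • (Pi.single 1 (1 : F) : Fin 2 → F) := by
      funext i; fin_cases i <;> simp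
    rw [e1, hf₁.bilinear.add_right, hf₁.bilinear.smul_right, hf₁.bilinear.smul_right, hf₁.alternating]
    change x 0 * 0 + x 1 * G 0 1 = 0
    rw [h0]; ring
  have hB : BB (T z0) (T z1) = c * G 0 1 ^ 3 := by
    rw [sympB_apply, hform]
    simp only [id, z0, z1]
    rw [apply_single (fun a b => ∏ i, G (a i) (b i))]
    simp
  have hmem : T z0 ∈ S := ⟨fun _ => Pi.single 0 1, by
    congr 1
    funext a
    by_cases ha : a = fun _ => 0
    · subst ha; simp [z0]
    · obtain ⟨i, hi⟩ := Function.ne_iff.mp ha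
      rw [Finset.prod_eq_zero (Finset.mem_univ i) (Pi.single_eq_of_ne hi _)]
      simp [z0, ha]⟩
  obtain ⟨x, hx⟩ := hS (hle (spT_mem (T z1) (1 : F))) _ hmem
  rw [spT_mulVec, one_mul, hB] at hx
  set s := c * G 0 1 ^ 3
  have hTadd : T z0 + s • T z1 = T (z0 + s • z1) := by
    simp only [T]
    rw [← Matrix.mulVec_smul, ← Matrix.mulVec_add]
    rfl
  have hz : z0 + s • z1 = fun a => ∏ i, x i (a i) := hTinj (hTadd.symm.trans hx)
  have e0 := congrFun hz ![0, 0, 0]
  have e7 := congrFun hz ![1, 1, 1]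
  have e3 := congrFun hz ![0, 1, 1]
  have e4 := congrFun hz ![1, 0, 0]
  have h1 : (![0, 0, 0] : Fin 3 → Fin 2) = fun _ => 0 := by decide
  have h2 : (![1, 1, 1] : Fin 3 → Fin 2) = fun _ => 1 := by decide
  have d1 : ((fun _ => 1) : Fin 3 → Fin 2) ≠ fun _ => 0 := by decide
  have d3 : (![0, 1, 1] : Fin 3 → Fin 2) ≠ fun _ => 0 := by decide
  have d3' : (![0, 1, 1] : Fin 3 → Fin 2) ≠ fun _ => 1 := by decide
  have d4 : (![1, 0, 0] : Fin 3 → Fin 2) ≠ fun _ => 0 := by decide
  have d4' : (![1, 0, 0] : Fin 3 → Fin 2) ≠ fun _ => 1 := by decide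
  simp only [z0, z1, Pi.add_apply, Pi.smul_apply, smul_eq_mul, Fin.prod_univ_three] at e0 e7 e3 e4
  rw [h1, Pi.single_eq_same, Pi.single_eq_of_ne d1.symm, mul_zero, add_zero] at e0
  rw [h2, Pi.single_eq_same, Pi.single_eq_of_ne d1, zero_add, mul_one] at e7
  rw [Pi.single_eq_of_ne d3, Pi.single_eq_of_ne d3', mul_zero, add_zero] at e3
  rw [Pi.single_eq_of_ne d4, Pi.single_eq_of_ne d4', mul_zero, add_zero] at e4
  simp only [Matrix.cons_val_zero, Matrix.cons_val_one, Matrix.cons_val_two, Matrix.tail_cons, Matrix.head_cons,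
    Matrix.cons_val] at e3 e4
  have hs : s ≠ 0 := mul_ne_zero hc (pow_ne_zero _ hG)
  refine hs ?_
  calc s = 1 * s := (one_mul s).symm
    _ = (x 0 0 * x 1 0 * x 2 0) * (x 0 1 * x 1 1 * x 2 1) := by rw [← e0, ← e7]
    _ = (x 0 0 * x 1 1 * x 2 1) * (x 0 1 * x 1 0 * x 2 0) := by ring
    _ = 0 := by rw [← e3, zero_mul]

theorem eq_mul_of_det {z : Fin 2 → Fin 2 → F} (h : z 0 0 * z 1 1 = z 0 1 * z 1 0) :
    ∃ x y : Fin 2 → F, ∀ i j, z i j = x i * y j := by
  by_cases h00 : z 0 0 = 0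
  · by_cases h01 : z 0 1 = 0
    · refine ⟨![0, 1], ![z 1 0, z 1 1], fun i j => ?_⟩
      fin_cases i <;> fin_cases j <;> simp [h00, h01]
    · have h10 : z 1 0 = 0 := by
        rw [h00, zero_mul] at h
        exact (mul_eq_zero.mp h.symm).resolve_left h01
      refine ⟨![z 0 1, z 1 1], ![0, 1], fun i j => ?_⟩
      fin_cases i <;> fin_cases j <;> simp [h00, h10]
  · refine ⟨![1, z 1 0 * (z 0 0)⁻¹], ![z 0 0, z 0 1], fun i j => ?_⟩
    fin_cases i <;> fin_cases j
    · simp
    · simp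
    · simp [h00]
    · simp only [Fin.mk_one, Matrix.cons_val_one, Matrix.cons_val_zero]
      field_simp
      linear_combination h

/-- A tensor decomposition with an orthogonal factor of plus type in dimension four is not maximal. -/
theorem tensor_plus_false (hq : Odd (Fintype.card F)) {H : Subgroup GLV} (hH : IsMaximalIn (Cfsg.spGL m F) H)
    {e : (Fin m ⊕ Fin m) ≃ Fin 2 × Fin 4} {P : GLV}
    {f₁ : (Fin 2 → F) → (Fin 2 → F) → F} {f₂ : (Fin 4 → F) → (Fin 4 → F) → F}
    (hf₁ : IsSymplecticForm f₁) (hf₂ : IsSymmetricForm f₂)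
    (hplus : IsPlusTypeOn (fun v : Fin 4 → F => f₂ v v) ⊤)
    (hT : IsTensorFormStructure id fm f₁ f₂ e P) (hle : H ≤ tensorProductSubgroup 2 4 e P) : False := by
  classical
  have h2 := AschRel.two_ne_of_odd hq
  obtain ⟨c, hc, hB⟩ := form_tens hf₁ hf₂ hT
  let g : LinearMap.BilinForm F (Fin 4 → F) := LinearMap.mk₂ F f₂ hf₂.bilinear.add_left
    (fun c x v => hf₂.bilinear.smul_left c x v) hf₂.bilinear.add_right (fun c v x => hf₂.bilinear.smul_right c v x)
  have gs : ∀ x y, g x y = g y x := hf₂.symm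
  obtain ⟨U, -, hU, hUd⟩ := hplus
  rw [finrank_top, Module.finrank_fin_fun] at hUd
  let b := Module.finBasisOfFinrankEq F U (show Module.finrank F U = 2 by omega)
  have hUU : ∀ x ∈ U, ∀ y ∈ U, g x y = 0 := by
    intro x hx y hy
    have q1 : g x x = 0 := hU x hx
    have q2 : g y y = 0 := hU y hy
    have q3 : g (x + y) (x + y) = 0 := hU (x + y) (add_mem hx hy)
    simp only [map_add, LinearMap.add_apply, q1, q2, gs y x] at q3
    have : 2 * g x y = 0 := by linear_combination q3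
    exact (mul_eq_zero.mp this).resolve_left h2
  set u₁ : Fin 4 → F := (b 0 : Fin 4 → F)
  set u₂ : Fin 4 → F := (b 1 : Fin 4 → F)
  let φ : (Fin 4 → F) →ₗ[F] F × F := (g u₁).prod (g u₂)
  have hφ : Function.Surjective φ := by
    rw [← LinearMap.range_eq_top]
    by_contra hne
    obtain ⟨f, hf0, hf⟩ := Submodule.exists_dual_map_eq_bot_of_lt_top (lt_top_iff_ne_top.mpr hne) inferInstance
    have hker : ∀ y, f (φ y) = 0 := fun y => by
      have : f (φ y) ∈ (LinearMap.range φ).map f := ⟨_, ⟨y, rfl⟩, rfl⟩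
      rw [hf] at this
      exact this
    set a := f (1, 0)
    set b' := f (0, 1)
    have hsplit : ∀ p : F × F, f p = p.1 * a + p.2 * b' := fun p => by
      conv_lhs => rw [show p = p.1 • (1, 0) + p.2 • ((0, 1) : F × F) by simp]
      rw [map_add, map_smul, map_smul, smul_eq_mul, smul_eq_mul]
    have hzero : a • u₁ + b' • u₂ = 0 := by
      by_contra h0
      obtain ⟨y, hy⟩ := (hf₂.nondegenerate _ h0).2
      refine hy ?_
      have hk := hker y
      rw [hsplit] at hk
      change g u₁ y * a + g u₂ y * b' = 0 at hk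
      show g (a • u₁ + b' • u₂) y = 0
      simp only [map_add, map_smul, LinearMap.add_apply, LinearMap.smul_apply, smul_eq_mul]
      linear_combination hk
    have hab := Fintype.linearIndependent_iff.mp b.linearIndependent ![a, b'] (by
      rw [Fin.sum_univ_two]
      exact Subtype.ext (by simpa using hzero))
    exact hf0 (LinearMap.ext fun p => by
      rw [hsplit, show a = 0 from hab 0, show b' = 0 from hab 1, mul_zero, mul_zero, add_zero]; rfl)
  obtain ⟨w₁', hw₁⟩ := hφ (1, 0)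
  obtain ⟨w₂', hw₂⟩ := hφ (0, 1)
  have e11 : g u₁ w₁' = 1 := congrArg Prod.fst hw₁
  have e21 : g u₂ w₁' = 0 := congrArg Prod.snd hw₁
  have e12 : g u₁ w₂' = 0 := congrArg Prod.fst hw₂
  have e22 : g u₂ w₂' = 1 := congrArg Prod.snd hw₂
  have uu11 := hUU u₁ (b 0).2 u₁ (b 0).2
  have uu12 := hUU u₁ (b 0).2 u₂ (b 1).2
  have uu22 := hUU u₂ (b 1).2 u₂ (b 1).2
  set w₁ := w₁' - (g w₁' w₁' / 2) • u₁
  set w₂ := w₂' - (g w₂' w₂' / 2) • u₂ - g w₁' w₂' • u₁
  have a11 : g u₁ w₁ = 1 := by simp only [w₁, map_sub, map_smul, smul_eq_mul, e11, uu11]; ring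
  have a21 : g u₂ w₁ = 0 := by simp only [w₁, map_sub, map_smul, smul_eq_mul, e21, gs u₂ u₁, uu12]; ring
  have a12 : g u₁ w₂ = 0 := by simp only [w₂, map_sub, map_smul, smul_eq_mul, e12, uu11, uu12]; ring
  have a22 : g u₂ w₂ = 1 := by simp only [w₂, map_sub, map_smul, smul_eq_mul, e22, uu22, gs u₂ u₁, uu12]; ring
  have c11 : g w₁ w₁ = 0 := by
    simp only [w₁, map_sub, map_smul, LinearMap.sub_apply, LinearMap.smul_apply, smul_eq_mul, gs w₁' u₁, e11, uu11]
    field_simp
    ring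
  have c12 : g w₁ w₂ = 0 := by
    simp only [w₁, w₂, map_sub, map_smul, LinearMap.sub_apply, LinearMap.smul_apply, smul_eq_mul, gs w₁' u₁, gs w₁' u₂,
      e11, e21, e12, uu11, uu12]
    ring
  have c22 : g w₂ w₂ = 0 := by
    simp only [w₂, map_sub, map_smul, LinearMap.sub_apply, LinearMap.smul_apply, smul_eq_mul, gs w₂' u₁, gs w₂' u₂,
      gs u₂ u₁, e12, e22, uu11, uu12, uu22]
    field_simp
    ring
  let L : (Fin 2 → Fin 2 → F) →ₗ[F] (Fin 4 → F) :=
    { toFun := fun z => z 0 0 • u₁ + z 1 1 • w₁ + z 0 1 • u₂ - z 1 0 • w₂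
      map_add' := fun x y => by simp only [Pi.add_apply, add_smul]; abel
      map_smul' := fun a x => by
        simp only [Pi.smul_apply, RingHom.id_apply, smul_eq_mul, mul_smul, smul_sub, smul_add] }
  have hLL : ∀ z w, g (L z) (L w) = z 0 0 * w 1 1 + z 1 1 * w 0 0 - z 0 1 * w 1 0 - z 1 0 * w 0 1 := by
    intro z w
    show g (z 0 0 • u₁ + z 1 1 • w₁ + z 0 1 • u₂ - z 1 0 • w₂) (w 0 0 • u₁ + w 1 1 • w₁ + w 0 1 • u₂ - w 1 0 • w₂) = _
    simp only [map_sub, map_add, map_smul, LinearMap.sub_apply, LinearMap.add_apply, LinearMap.smul_apply, smul_eq_mul,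
      gs w₁ u₁, gs w₁ u₂, gs w₂ u₁, gs w₂ u₂, gs u₂ u₁, gs w₂ w₁, a11, a12, a21, a22, c11, c12, c22, uu11, uu12, uu22]
    ring
  have hLinj : Function.Injective L := LinearMap.ker_eq_bot.mp (LinearMap.ker_eq_bot'.mpr fun z hz => by
    have hh : ∀ w, g (L z) (L w) = 0 := fun w => by rw [hz, map_zero, LinearMap.zero_apply]
    funext i j
    fin_cases i <;> fin_cases j
    · simpa [hLL] using hh ![![0, 0], ![0, 1]]
    · simpa [hLL] using hh ![![0, 0], ![1, 0]]
    · simpa [hLL] using hh ![![0, 1], ![0, 0]]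
    · simpa [hLL] using hh ![![1, 0], ![0, 0]])
  have hLsurj : Function.Surjective L :=
    (LinearMap.injective_iff_surjective_of_finrank_eq_finrank (by simp [Module.finrank_pi_fintype])).mp hLinj
  -- coordinates on the whole space
  let Φ : (Fin 2 → Fin 2 → Fin 2 → F) →ₗ[F] V :=
    { toFun := fun z => coord e P (fun p => L (z p.1) p.2)
      map_add' := fun x y => by rw [← map_add]; congr 1; funext p; simp [map_add]
      map_smul' := fun a x => by rw [RingHom.id_apply, ← map_smul]; congr 1; funext p; simp [map_smul] }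
  have hΦinj : Function.Injective Φ := fun x y h => by
    funext i
    exact hLinj (funext fun q => congrFun (coord_injective e P h) (i, q))
  have hΦsurj : Function.Surjective Φ := fun v => by
    obtain ⟨z, rfl⟩ := coord_surjective e P v
    choose w hw using fun i => hLsurj fun q => z (i, q)
    exact ⟨w, congrArg (coord e P) (funext fun p => congrFun (hw p.1) p.2)⟩
  have hΦtens : ∀ (a : Fin 2 → F) (z : Fin 2 → Fin 2 → F), Φ (fun i => a i • z) = coord e P (tens a (L z)) := by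
    intro a z
    show coord e P _ = _
    congr 1
    funext p
    simp [tens]
  set β := f₁ (Pi.single 0 1) (Pi.single 1 1)
  have hf01 : ∀ a a' : Fin 2 → F, f₁ a a' = β * (a 0 * a' 1 - a 1 * a' 0) := by
    intro a a'
    have ea : ∀ a : Fin 2 → F, a = a 0 • (Pi.single 0 (1 : F) : Fin 2 → F) + a 1 • (Pi.single 1 (1 : F) : Fin 2 → F) := fun a => by
      funext i; fin_cases i <;> simp
    conv_lhs => rw [ea a, ea a']
    simp only [hf₁.bilinear.add_left, hf₁.bilinear.add_right, hf₁.bilinear.smul_left, hf₁.bilinear.smul_right,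
      hf₁.alternating, hf₁.skew (Pi.single 1 1) (Pi.single 0 1)]
    simp only [β, id]
    ring
  have hβ : β ≠ 0 := by
    intro h0
    obtain ⟨x, hx⟩ := (hf₁.nondegenerate (Pi.single 0 1) (by simp)).2
    exact hx (by rw [hf01, h0, zero_mul])
  have hΦB : ∀ z w, BB (Φ z) (Φ w) = c * β * (g (L (z 0)) (L (w 1)) - g (L (z 1)) (L (w 0))) := by
    intro z w
    have split : ∀ z, Φ z = coord e P (tens (Pi.single 0 1) (L (z 0))) + coord e P (tens (Pi.single 1 1) (L (z 1))) := by
      intro z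
      show coord e P _ = _
      rw [← map_add]
      congr 1
      funext ⟨i, j⟩
      fin_cases i <;> simp [tens]
    rw [split z, split w]
    simp only [map_add, LinearMap.add_apply, hB, hf01]
    simp [g]
    ring
  let S : Set V := {v | ∃ a x y : Fin 2 → F, v = Φ fun i j k => a i * x j * y k}
  -- the tensor subgroup preserves the pure tensors
  have hTS : tensorProductSubgroup 2 4 e P ⊓ Cfsg.spGL m F ≤ setStab S := by
    rintro G ⟨hG, hGs⟩ v ⟨a, x, y, rfl⟩
    obtain ⟨A, B, hact⟩ := mem_tensor_iff_action hG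
    obtain ⟨a₀, a₁, -, -, ha⟩ := exists_dual hf₁.bilinear hf₁.nondegenerate le_rfl
    obtain ⟨v₀, v₁, -, -, hv⟩ := exists_dual hf₂.bilinear hf₂.nondegenerate (by norm_num)
    have hiso : ∀ u v : Fin 4 → F, f₁ ((A : Matrix _ _ F) *ᵥ a₀) ((A : Matrix _ _ F) *ᵥ a₁) *
        f₂ ((B : Matrix _ _ F) *ᵥ u) ((B : Matrix _ _ F) *ᵥ v) = f₂ u v := by
      intro u v
      have h := mem_spGL_iff.mp hGs (coord e P (tens a₀ u)) (coord e P (tens a₁ v))
      rw [hact, hact, hB, hB, ha, one_mul] at h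
      exact mul_left_cancel₀ hc h
    set z : Fin 2 → Fin 2 → F := fun j k => x j * y k
    obtain ⟨z', hz'⟩ := hLsurj ((B : Matrix _ _ F) *ᵥ L z)
    have h0 : g (L z') (L z') = 0 := by
      have h1 := hiso (L z) (L z)
      have hz : f₂ (L z) (L z) = 0 := (hLL z z).trans (by simp only [z]; ring)
      rw [hz, ← hz'] at h1
      refine (mul_eq_zero.mp h1).resolve_left fun h => ?_
      have h1' := hiso v₀ v₁
      rw [h, zero_mul, hv] at h1'
      exact zero_ne_one h1'
    rw [hLL] at h0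
    obtain ⟨x', y', hxy⟩ := eq_mul_of_det (z := z') (by
      have h' : 2 * (z' 0 0 * z' 1 1 - z' 0 1 * z' 1 0) = 0 := by linear_combination h0
      exact sub_eq_zero.mp ((mul_eq_zero.mp h').resolve_left h2))
    refine ⟨(A : Matrix _ _ F) *ᵥ a, x', y', ?_⟩
    rw [show (fun i j k => a i * x j * y k) = fun i => a i • z from by
        funext i j k; simp [z, mul_assoc], hΦtens, hact, ← hz',
      show (fun i j k => ((A : Matrix (Fin 2) (Fin 2) F) *ᵥ a) i * x' j * y' k) = fun i => ((A : Matrix (Fin 2) (Fin 2) F) *ᵥ a) i • z' from by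
        funext i j k; simp [hxy, mul_assoc], hΦtens]
  -- interchanging two factors
  let sw : (Fin 2 → Fin 2 → Fin 2 → F) ≃ₗ[F] (Fin 2 → Fin 2 → Fin 2 → F) :=
    { toFun := fun z i j k => z j i k
      invFun := fun z i j k => z j i k
      left_inv := fun z => rfl
      right_inv := fun z => rfl
      map_add' := fun x y => rfl
      map_smul' := fun a x => rfl }
  let ΦE := LinearEquiv.ofBijective Φ ⟨hΦinj, hΦsurj⟩
  let swV : V ≃ₗ[F] V := (ΦE.symm.trans sw).trans ΦE
  let sg : GLV := (glEquiv (Fin m ⊕ Fin m) F).symm swV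
  have hsg : ∀ z, (sg : Mx) *ᵥ Φ z = Φ (sw z) := fun z => by
    rw [glEquiv_symm_mulVec]
    show ΦE (sw (ΦE.symm (ΦE z))) = _
    rw [LinearEquiv.symm_apply_apply]; rfl
  have hsgSp : sg ∈ Cfsg.spGL m F := mem_spGL_iff.mpr fun u v => by
    obtain ⟨z, rfl⟩ := hΦsurj u
    obtain ⟨w, rfl⟩ := hΦsurj v
    rw [hsg, hsg, hΦB, hΦB, hLL, hLL, hLL, hLL]
    simp only [sw, LinearEquiv.coe_mk, LinearMap.coe_mk, AddHom.coe_mk]
    ring
  have hsgS : sg ∈ setStab S := by
    rintro v ⟨a, x, y, rfl⟩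
    refine ⟨x, a, y, ?_⟩
    rw [hsg]
    congr 1
    funext i j k
    show a j * x i * y k = x i * a j * y k
    ring
  have hsgT : sg ∉ tensorProductSubgroup 2 4 e P := by
    intro h
    obtain ⟨A, B, hact⟩ := mem_tensor_iff_action h
    set z : Fin 2 → Fin 2 → F := ![![1, 0], ![0, 1]]
    have h1 := hact (Pi.single 0 1) (L z)
    rw [← hΦtens, hsg] at h1
    obtain ⟨z', hz'⟩ := hLsurj ((B : Matrix _ _ F) *ᵥ L z)
    rw [← hz', ← hΦtens] at h1
    have h3 := hΦinj h1
    have p1 := congrFun (congrFun (congrFun h3 0) 0) 0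
    have p2 := congrFun (congrFun (congrFun h3 1) 0) 0
    have p3 := congrFun (congrFun (congrFun h3 1) 0) 1
    simp [sw, z] at p1 p2 p3
    rcases p2 with p2 | p2
    · rw [p2, zero_mul] at p3; exact one_ne_zero p3
    · rw [p2, mul_zero] at p1; exact one_ne_zero p1
  have hproper : ¬ Cfsg.spGL m F ≤ setStab S := by
    intro hall
    set z0 : Fin 2 → Fin 2 → Fin 2 → F := fun i j k => (Pi.single 0 1 : Fin 2 → F) i * (Pi.single 0 1 : Fin 2 → F) j * (Pi.single 0 1 : Fin 2 → F) k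
    set z1 : Fin 2 → Fin 2 → Fin 2 → F := fun i j k => (Pi.single 1 1 : Fin 2 → F) i * (Pi.single 1 1 : Fin 2 → F) j * (Pi.single 1 1 : Fin 2 → F) k
    obtain ⟨a, x, y, hx⟩ := hall (spT_mem (Φ z1) (1 : F)) _ ⟨_, _, _, rfl⟩
    change ((spT (Φ z1) (1 : F) : GLV) : Mx) *ᵥ Φ z0 = _ at hx
    rw [spT_mulVec, one_mul, ← map_smul, ← map_add] at hx
    have h3 := hΦinj hx
    have hs : BB (Φ z0) (Φ z1) = c * β := by
      rw [hΦB, hLL, hLL]
      simp [z0, z1]
    rw [hs] at h3
    have p0 := congrFun (congrFun (congrFun h3 0) 0) 0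
    have p7 := congrFun (congrFun (congrFun h3 1) 1) 1
    have p3 := congrFun (congrFun (congrFun h3 0) 1) 1
    simp [z0, z1] at p0 p7 p3
    refine mul_ne_zero hc hβ ?_
    calc c * β = 1 * (c * β) := (one_mul _).symm
      _ = (a 0 * x 0 * y 0) * (a 1 * x 1 * y 1) := by rw [← p0, ← p7]
      _ = (a 0 * x 1 * y 1) * (a 1 * x 0 * y 0) := by ring
      _ = 0 := by
        rcases p3 with (h | h) | h <;> rw [h] <;> ring
  refine between_false hH (K := setStab S ⊓ Cfsg.spGL m F) (le_inf hle hH.1.le)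
    (lt_of_le_of_ne (le_inf hTS inf_le_right) fun h => hsgT ?_) (lt_of_le_of_ne inf_le_right fun h => hproper ?_)
  · exact (h.ge ⟨hsgS, hsgSp⟩).1
  · exact h.ge.trans inf_le_left

end Cfsg.Agent.GeomClasses.SpCases
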