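import Cfsg.Agent.GeomClasses.SpCases.Cases
import Cfsg.Agent.GeomClasses.DecompTools
import Cfsg.Agent.GeomClasses.TwoHalves

/-! # A pair of totally singular planes over three elements -/

set_option autoImplicit false
set_option linter.unusedSectionVars false

namespace Cfsg.Agent.GeomClasses.SpCases

open Matrix Cfsg.Geo Cfsg.Agent.Forms Cfsg.Agent.GeomClasses

variable {F : Type*} [Field F] [Fintype F]

local notation "V" => (Fin 2 ⊕ Fin 2 → F)
local notation "Mx" => Matrix (Fin 2 ⊕ Fin 2) (Fin 2 ⊕ Fin 2) F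
local notation "GLV" => GL (Fin 2 ⊕ Fin 2) F
local notation "fm" => Cfsg.sympForm 2 F
local notation "BB" => sympB 2 F
local notation "Sp" => Cfsg.spGL 2 F

/-- The plane of the graph with sign `s`. -/
def graphPlane (d₀ d₁ e₀ e₁ : V) (s : F) : Submodule F V :=
  Submodule.span F (Set.range ![d₀ - s • e₁, d₁ + s • e₀])

/-- Over three elements the stabiliser of a totally singular pair of planes fixes an orthogonal decomposition. -/
theorem pair_three (hF : Fintype.card F = 3) {H : Subgroup GLV} (hH : IsMaximalIn Sp H)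
    {D : Fin 2 → Submodule F V} (hD : IsMDecomposition 2 D) (hts : ∀ i, IsTotallySingularFor fm (D i))
    (hle : H ≤ decompositionStabilizer D) :
    ∃ D' : Fin 2 → Submodule F V, IsNondegenerateMDecomposition fm 2 D' ∧ H = decompositionStabilizer D' ⊓ Sp := by
  classical
  have hodd : Odd (Fintype.card F) := by rw [hF]; decide
  have h2 := AschRel.two_ne_of_odd hodd
  have hsq : ∀ a : F, a ≠ 0 → a * a = 1 := fun a ha => by
    have := FiniteField.pow_card_sub_one_eq_one a ha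
    rwa [hF, show 3 - 1 = 2 from rfl, pow_two] at this
  have hts' : ∀ i, ∀ u ∈ D i, ∀ v ∈ D i, BB u v = 0 := fun i u hu v hv => by rw [sympB_apply]; exact hts i u hu v hv
  let b := Module.finBasisOfFinrankEq F (D 0) (hD.finrank_eq 0)
  set d₀ : V := (b 0 : V)
  set d₁ : V := (b 1 : V)
  have hspan0 : ∀ x ∈ D 0, ∃ p q : F, x = p • d₀ + q • d₁ := fun x hx => by
    have h := b.sum_repr ⟨x, hx⟩
    rw [Fin.sum_univ_two] at h
    exact ⟨_, _, (congrArg Subtype.val h).symm⟩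
  have hc : IsCompl (D 0) (D 1) := GeomClasses.decomp_two_isCompl hD
  let φ : D 1 →ₗ[F] F × F := ((BB d₀).prod (BB d₁)).comp (D 1).subtype
  have hφinj : Function.Injective φ := LinearMap.ker_eq_bot.mp (LinearMap.ker_eq_bot'.mpr fun y hy => by
    obtain ⟨h0, h1⟩ := Prod.mk_eq_zero.mp hy
    change BB d₀ (y : V) = 0 at h0
    change BB d₁ (y : V) = 0 at h1
    refine Subtype.ext (isForm_symp.nondeg (y : V) fun w => ?_)
    obtain ⟨x, hx, z, hz, rfl⟩ := Submodule.mem_sup.mp (show w ∈ D 0 ⊔ D 1 by rw [hc.sup_eq_top]; trivial)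
    obtain ⟨p, q, rfl⟩ := hspan0 x hx
    rw [map_add, hts' 1 _ y.2 z hz, add_zero, map_add, map_smul, map_smul, sympB_skew (y : V) d₀, sympB_skew (y : V) d₁,
      h0, h1]
    simp)
  have hφsurj : Function.Surjective φ :=
    (LinearMap.injective_iff_surjective_of_finrank_eq_finrank (by rw [hD.finrank_eq]; simp)).mp hφinj
  obtain ⟨⟨e₀, he₀⟩, h0⟩ := hφsurj (1, 0)
  obtain ⟨⟨e₁, he₁⟩, h1⟩ := hφsurj (0, 1)
  have b00 : BB d₀ e₀ = 1 := congrArg Prod.fst h0
  have b10 : BB d₁ e₀ = 0 := congrArg Prod.snd h0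
  have b01 : BB d₀ e₁ = 0 := congrArg Prod.fst h1
  have b11 : BB d₁ e₁ = 1 := congrArg Prod.snd h1
  have dd : BB d₀ d₁ = 0 := hts' 0 _ (b 0).2 _ (b 1).2
  have ee : BB e₀ e₁ = 0 := hts' 1 _ he₀ _ he₁
  have dd' : BB d₁ d₀ = 0 := hts' 0 _ (b 1).2 _ (b 0).2
  have ee' : BB e₁ e₀ = 0 := hts' 1 _ he₁ _ he₀
  have c00 : BB e₀ d₀ = -1 := by rw [sympB_skew, b00]
  have c01 : BB e₀ d₁ = 0 := by rw [sympB_skew, b10, neg_zero]
  have c10 : BB e₁ d₀ = 0 := by rw [sympB_skew, b01, neg_zero]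
  have c11 : BB e₁ d₁ = -1 := by rw [sympB_skew, b11]
  have hspan1 : ∀ y ∈ D 1, y = BB d₀ y • e₀ + BB d₁ y • e₁ := fun y hy => by
    have he : (D 1).subtype ⟨y, hy⟩ = _ := congrArg (D 1).subtype
      (hφinj (a₁ := ⟨y, hy⟩) (a₂ := BB d₀ y • ⟨e₀, he₀⟩ + BB d₁ y • ⟨e₁, he₁⟩) (by
        show (BB d₀ y, BB d₁ y) = _
        rw [map_add, map_smul, map_smul, h0, h1]
        simp))
    simpa using he
  have hspan0' : ∀ x ∈ D 0, x = -BB e₀ x • d₀ + -BB e₁ x • d₁ := fun x hx => by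
    obtain ⟨p, q, rfl⟩ := hspan0 x hx
    simp only [map_add, map_smul, smul_eq_mul, c00, c01, c10, c11]
    module
  let Γ : F → Submodule F V := graphPlane d₀ d₁ e₀ e₁
  have hΓ : ∀ s p q, p • (d₀ - s • e₁) + q • (d₁ + s • e₀) ∈ Γ s := fun s p q =>
    add_mem (Submodule.smul_mem _ _ (Submodule.subset_span ⟨0, rfl⟩)) (Submodule.smul_mem _ _ (Submodule.subset_span ⟨1, rfl⟩))
  have hΓm : ∀ s x, x ∈ Γ s → ∃ p q, x = p • (d₀ - s • e₁) + q • (d₁ + s • e₀) := fun s x hx => by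
    obtain ⟨c, hc⟩ := (Submodule.mem_span_range_iff_exists_fun F).mp hx
    exact ⟨c 0, c 1, by rw [← hc, Fin.sum_univ_two]; rfl⟩
  let D' : Fin 2 → Submodule F V := ![Γ 1, Γ (-1)]
  have horth : ∀ s x y, x ∈ Γ s → y ∈ Γ (-s) → BB x y = 0 := by
    intro s x y hx hy
    obtain ⟨p, q, rfl⟩ := hΓm s x hx
    obtain ⟨p', q', rfl⟩ := hΓm (-s) y hy
    simp only [map_add, map_sub, map_smul, LinearMap.add_apply, LinearMap.sub_apply, LinearMap.smul_apply, smul_eq_mul,
      sympB_self, dd, dd', ee, ee', b00, b01, b10, b11, c00, c01, c10, c11]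
    ring
  have hnd : ∀ s, s ≠ 0 → IsNondegenerateOn fm (Γ s) := by
    intro s hs x hx hx0
    obtain ⟨p, q, rfl⟩ := hΓm s x hx
    have key : ∃ y ∈ Γ s, BB (p • (d₀ - s • e₁) + q • (d₁ + s • e₀)) y ≠ 0 := by
      by_cases hp : p = 0
      · refine ⟨d₀ - s • e₁, by simpa using hΓ s 1 0, ?_⟩
        have hq : q ≠ 0 := fun hq => hx0 (by rw [hp, hq]; simp)
        simp only [hp, zero_smul, zero_add, map_add, map_sub, map_smul, LinearMap.add_apply, LinearMap.smul_apply,
          smul_eq_mul, sympB_self, dd', ee, b11, c00]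
        rw [show q * (s * -1) - s * (q * (1 + s * 0)) = -(2 * (q * s)) by ring]
        exact neg_ne_zero.mpr (mul_ne_zero h2 (mul_ne_zero hq hs))
      · refine ⟨d₁ + s • e₀, by simpa using hΓ s 0 1, ?_⟩
        simp only [map_add, map_sub, map_smul, LinearMap.add_apply, LinearMap.sub_apply, LinearMap.smul_apply,
          smul_eq_mul, sympB_self, dd, dd', ee, ee', b00, b10, c01, c11]
        ring_nf
        rw [show p * s * 2 = 2 * (p * s) by ring]
        exact mul_ne_zero h2 (mul_ne_zero hp hs)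
    obtain ⟨y, hy, hne⟩ := key
    refine ⟨⟨y, hy, ?_⟩, ⟨y, hy, ?_⟩⟩ <;> rw [← sympB_apply]
    · rw [sympB_skew]; exact neg_ne_zero.mpr hne
    · exact hne
  have hrank : ∀ s, Module.finrank F (Γ s) = 2 := by
    intro s
    show Module.finrank F (Submodule.span F _) = 2
    rw [finrank_span_eq_card, Fintype.card_fin]
    rw [LinearIndependent.pair_iff]
    intro p q h
    have h1 := congrArg (fun z => BB z e₀) h
    have h2' := congrArg (fun z => BB z e₁) h
    simp only [map_add, map_sub, map_smul, map_zero, LinearMap.add_apply, LinearMap.sub_apply, LinearMap.smul_apply,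
      LinearMap.zero_apply, smul_eq_mul, sympB_self, b00, b01, b10, b11, ee, ee'] at h1 h2'
    exact ⟨by linear_combination h1, by linear_combination h2'⟩
  have hdisj : Disjoint (Γ 1) (Γ (-1)) := Submodule.disjoint_def.mpr fun x hx hx' => by
    by_contra hx0
    obtain ⟨-, y, hy, hne⟩ := hnd (-1) (neg_ne_zero.mpr one_ne_zero) x hx' hx0
    exact hne (by rw [← sympB_apply]; exact horth 1 x y hx hy)
  have hD'd : IsMDecomposition 2 D' := by
    refine ⟨le_rfl, by norm_num, fun i => by fin_cases i <;> exact hrank _, ?_, ?_⟩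
    · rw [iSupIndep_def]
      intro i
      fin_cases i
      · exact hdisj.mono_right (iSup₂_le fun j hj => by fin_cases j <;> [exact absurd rfl hj; exact le_rfl])
      · exact hdisj.symm.mono_right (iSup₂_le fun j hj => by fin_cases j <;> [exact le_rfl; exact absurd rfl hj])
    · apply Submodule.eq_top_of_finrank_eq
      have h1 := Submodule.finrank_sup_add_finrank_inf_eq (Γ 1) (Γ (-1))
      rw [disjoint_iff.mp hdisj, finrank_bot, add_zero, hrank, hrank] at h1
      have h3 : Γ 1 ⊔ Γ (-1) ≤ iSup D' := sup_le (le_iSup D' 0) (le_iSup D' 1)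
      have h4 := Submodule.finrank_mono h3
      have h5 := Submodule.finrank_le (iSup D')
      rw [finrank_V] at h5 ⊢
      omega
  have hD'n : IsNondegenerateMDecomposition fm 2 D' := by
    refine ⟨hD'd, fun i => ?_, fun i j hij x hx y hy => ?_⟩
    · fin_cases i
      · exact hnd 1 one_ne_zero
      · exact hnd (-1) (neg_ne_zero.mpr one_ne_zero)
    · rw [← sympB_apply]
      fin_cases i <;> fin_cases j
      · exact absurd rfl hij
      · exact horth 1 x y hx hy
      · exact horth (-1) x y hx (by rw [neg_neg]; exact hy)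
      · exact absurd rfl hij
  refine ⟨D', hD'n, MaxList.eq_of_le hH (fun g hg => ?_) (decomp_not_full hD'd)⟩
  have hg' := mem_spGL_iff.mp (hH.1.le hg)
  obtain ⟨σ, hσ⟩ := hle hg
  have hmem : ∀ i, ∀ x ∈ D i, (g : Mx) *ᵥ x ∈ D (σ i) := fun i x hx => by
    rw [← hσ i]; exact ⟨x, hx, Matrix.toLin'_apply _ _⟩
  suffices hs : ∀ s : F, s * s = 1 → ∃ s' : F, s' * s' = 1 ∧ ∀ x ∈ Γ s, (g : Mx) *ᵥ x ∈ Γ s' by
    refine GeomClasses.mem_decomp_of_forall hD'd fun i => ?_
    obtain ⟨s', hs', hs''⟩ : ∃ s' : F, s' * s' = 1 ∧ ∀ x ∈ D' i, (g : Mx) *ᵥ x ∈ Γ s' := by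
      fin_cases i
      · exact hs 1 (one_mul 1)
      · exact hs (-1) (by ring)
    rcases mul_self_eq_one_iff.mp hs' with rfl | rfl
    · exact ⟨0, hs''⟩
    · exact ⟨1, hs''⟩
  intro s hs
  -- it is enough to treat the two generators
  suffices hgen : ∃ s' : F, s' * s' = 1 ∧ (g : Mx) *ᵥ (d₀ - s • e₁) ∈ Γ s' ∧ (g : Mx) *ᵥ (d₁ + s • e₀) ∈ Γ s' by
    obtain ⟨s', hs', h3, h4⟩ := hgen
    refine ⟨s', hs', fun x hx => ?_⟩
    obtain ⟨p, q, rfl⟩ := hΓm s x hx
    rw [Matrix.mulVec_add, Matrix.mulVec_smul, Matrix.mulVec_smul]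
    exact add_mem (Submodule.smul_mem _ _ h3) (Submodule.smul_mem _ _ h4)
  have h10 : σ 0 ≠ σ 1 := σ.injective.ne (by decide)
  rcases (show (σ 0 = 0 ∧ σ 1 = 1) ∨ (σ 0 = 1 ∧ σ 1 = 0) by omega) with ⟨s0, s1⟩ | ⟨s0, s1⟩
  · have m0 := hspan0' _ (s0 ▸ hmem 0 d₀ (b 0).2)
    have m1 := hspan0' _ (s0 ▸ hmem 0 d₁ (b 1).2)
    have n0 := hspan1 _ (s1 ▸ hmem 1 e₀ he₀)
    have n1 := hspan1 _ (s1 ▸ hmem 1 e₁ he₁)
    set a := -BB e₀ ((g : Mx) *ᵥ d₀)
    set c := -BB e₁ ((g : Mx) *ᵥ d₀)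
    set a' := -BB e₀ ((g : Mx) *ᵥ d₁)
    set c' := -BB e₁ ((g : Mx) *ᵥ d₁)
    set α := BB d₀ ((g : Mx) *ᵥ e₀)
    set β := BB d₁ ((g : Mx) *ᵥ e₀)
    set α' := BB d₀ ((g : Mx) *ᵥ e₁)
    set β' := BB d₁ ((g : Mx) *ᵥ e₁)
    have q00 := hg' d₀ e₀
    have q10 := hg' d₁ e₀
    have q01 := hg' d₀ e₁
    have q11 := hg' d₁ e₁
    rw [m0, n0, b00] at q00
    rw [m1, n0, b10] at q10
    rw [m0, n1, b01] at q01
    rw [m1, n1, b11] at q11
    simp only [map_add, map_smul, LinearMap.add_apply, LinearMap.smul_apply, smul_eq_mul, b00, b01, b10, b11] at q00 q10 q01 q11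
    ring_nf at q00 q10 q01 q11
    set Δ := a * c' - c * a' with hΔdef
    have iα : Δ * α = c' := by rw [hΔdef]; linear_combination c' * q00 - c * q10
    have iβ : Δ * β = -a' := by rw [hΔdef]; linear_combination a * q10 - a' * q00
    have iα' : Δ * α' = -c := by rw [hΔdef]; linear_combination c' * q01 - c * q11
    have iβ' : Δ * β' = a := by rw [hΔdef]; linear_combination a * q11 - a' * q01
    have hΔ : Δ ≠ 0 := fun h => by
      rw [h, zero_mul] at iα iβ iα' iβ'
      rw [← iα, neg_eq_zero.mp iβ.symm] at q11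
      simp at q11
    have hΔ2 := hsq Δ hΔ
    refine ⟨s * Δ, by linear_combination Δ * Δ * hs + hΔ2, ?_, ?_⟩
    · convert hΓ (s * Δ) a c using 1
      rw [Matrix.mulVec_sub, Matrix.mulVec_smul, m0, n1]
      have f1 : α' = -(Δ * c) := by linear_combination Δ * iα' - α' * hΔ2
      have f2 : β' = Δ * a := by linear_combination Δ * iβ' - β' * hΔ2
      rw [f1, f2]; module
    · convert hΓ (s * Δ) a' c' using 1
      rw [Matrix.mulVec_add, Matrix.mulVec_smul, m1, n0]
      have f1 : α = Δ * c' := by linear_combination Δ * iα - α * hΔ2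
      have f2 : β = -(Δ * a') := by linear_combination Δ * iβ - β * hΔ2
      rw [f1, f2]; module
  · have m0 := hspan1 _ (s0 ▸ hmem 0 d₀ (b 0).2)
    have m1 := hspan1 _ (s0 ▸ hmem 0 d₁ (b 1).2)
    have n0 := hspan0' _ (s1 ▸ hmem 1 e₀ he₀)
    have n1 := hspan0' _ (s1 ▸ hmem 1 e₁ he₁)
    set a := BB d₀ ((g : Mx) *ᵥ d₀)
    set c := BB d₁ ((g : Mx) *ᵥ d₀)
    set a' := BB d₀ ((g : Mx) *ᵥ d₁)
    set c' := BB d₁ ((g : Mx) *ᵥ d₁)
    set α := -BB e₀ ((g : Mx) *ᵥ e₀)
    set β := -BB e₁ ((g : Mx) *ᵥ e₀)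
    set α' := -BB e₀ ((g : Mx) *ᵥ e₁)
    set β' := -BB e₁ ((g : Mx) *ᵥ e₁)
    have q00 := hg' d₀ e₀
    have q10 := hg' d₁ e₀
    have q01 := hg' d₀ e₁
    have q11 := hg' d₁ e₁
    rw [m0, n0, b00] at q00
    rw [m1, n0, b10] at q10
    rw [m0, n1, b01] at q01
    rw [m1, n1, b11] at q11
    simp only [map_add, map_smul, LinearMap.add_apply, LinearMap.smul_apply, smul_eq_mul, c00, c01, c10, c11] at q00 q10 q01 q11
    ring_nf at q00 q10 q01 q11
    set Δ := a * c' - c * a' with hΔdef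
    have iα : Δ * α = -c' := by rw [hΔdef]; linear_combination c * q10 - c' * q00
    have iβ : Δ * β = a' := by rw [hΔdef]; linear_combination a' * q00 - a * q10
    have iα' : Δ * α' = c := by rw [hΔdef]; linear_combination c * q11 - c' * q01
    have iβ' : Δ * β' = -a := by rw [hΔdef]; linear_combination a' * q01 - a * q11
    have hΔ : Δ ≠ 0 := fun h => by
      rw [h, zero_mul] at iα iβ iα' iβ'
      rw [← iβ, neg_eq_zero.mp iα.symm] at q11
      simp at q11
    have hΔ2 := hsq Δ hΔ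
    refine ⟨s * Δ, by linear_combination Δ * Δ * hs + hΔ2, ?_, ?_⟩
    · have f1 : α' = Δ * c := by linear_combination Δ * iα' - α' * hΔ2
      have f2 : β' = -(Δ * a) := by linear_combination Δ * iβ' - β' * hΔ2
      have key : a • e₀ + c • e₁ - s • (α' • d₀ + β' • d₁) =
          (-(s * Δ * c)) • (d₀ - (s * Δ) • e₁) + (s * Δ * a) • (d₁ + (s * Δ) • e₀) := by
        rw [f1, f2]
        match_scalars <;> first
          | ring1
          | linear_combination (-a) * (Δ * Δ * hs + hΔ2)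
          | linear_combination (-c) * (Δ * Δ * hs + hΔ2)
      rw [Matrix.mulVec_sub, Matrix.mulVec_smul, m0, n1, key]
      exact hΓ _ _ _
    · have f1 : α = -(Δ * c') := by linear_combination Δ * iα - α * hΔ2
      have f2 : β = Δ * a' := by linear_combination Δ * iβ - β * hΔ2
      have key : a' • e₀ + c' • e₁ + s • (α • d₀ + β • d₁) =
          (-(s * Δ * c')) • (d₀ - (s * Δ) • e₁) + (s * Δ * a') • (d₁ + (s * Δ) • e₀) := by
        rw [f1, f2]
        match_scalars <;> first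
          | ring1
          | linear_combination (-a') * (Δ * Δ * hs + hΔ2)
          | linear_combination (-c') * (Δ * Δ * hs + hΔ2)
      rw [Matrix.mulVec_add, Matrix.mulVec_smul, m1, n0, key]
      exact hΓ _ _ _

end Cfsg.Agent.GeomClasses.SpCases
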