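import Cfsg.Agent.GeomClasses.SpCases.Cases
import Cfsg.Agent.GeomClasses.SympQuadExt
import Cfsg.Agent.GeomClasses.Aschbacher.Rel.Basic

/-! # Quadratic extension structures in dimension four over three elements -/

set_option autoImplicit false
set_option linter.unusedSectionVars false

namespace Cfsg.Agent.GeomClasses.SpCases

open Matrix Cfsg.Geo Cfsg.Agent.Forms Cfsg.Agent.GeomClasses

section Model

local notation "M4" => Matrix (Fin 2 ⊕ Fin 2) (Fin 2 ⊕ Fin 2) (ZMod 3)

/-- A matrix with rows given as two pairs of pairs. -/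
def qmat (A B C D : Matrix (Fin 2) (Fin 2) (ZMod 3)) : M4 := Matrix.fromBlocks A B C D

/-- The standard matrix of the form. -/
def qJ : M4 := qmat 0 (-1) 1 0

/-- An isometry fixing the frame of self-adjoint involutions. -/
def qg : M4 := qmat !![2, 1; 2, 0] !![0, 1; 1, 1] !![0, 2; 2, 1] !![1, 1; 2, 0]

/-- Its inverse. -/
def qgi : M4 := qmat !![1, 2; 1, 0] !![0, 2; 2, 2] !![0, 1; 1, 2] !![2, 2; 1, 0]

/-- A transvection. -/
def qt : M4 := qmat !![1, 0; 0, 1] !![0, 0; 0, 0] !![0, 0; 0, 2] !![1, 0; 0, 1]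

/-- Its inverse. -/
def qti : M4 := qmat !![1, 0; 0, 1] !![0, 0; 0, 0] !![0, 0; 0, 1] !![1, 0; 0, 1]

/-- An involution moved out of the frame by the transvection. -/
def qX : M4 := qmat !![0, 0; 0, 0] !![0, 1; 2, 0] !![0, 2; 1, 0] !![0, 0; 0, 0]

/-- The self-adjoint matrices commuting with the standard one. -/
def qcom (a b c e : ZMod 3) : M4 := qmat !![a, b; b, c] !![0, e; -e, 0] !![0, -e; e, 0] !![a, b; b, c]

/-- The self-adjoint matrices anticommuting with the standard one. -/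
def qanti (a e : ZMod 3) : M4 := qmat !![0, a; -a, 0] !![0, e; -e, 0] !![0, e; -e, 0] !![0, -a; a, 0]

theorem qJ_eq : (Matrix.J (Fin 2) (ZMod 3)) = qJ := rfl

theorem qg_facts : qg * qgi = 1 ∧ qgi * qg = 1 ∧ qgᵀ * qJ * qg = qJ ∧ qg * qJ ≠ qJ * qg ∧ qg * qJ ≠ -(qJ * qg) := by
  decide +kernel

theorem qt_facts : qt * qti = 1 ∧ qti * qt = 1 ∧ qtᵀ * qJ * qt = qJ ∧ qXᵀ * qJ = qJ * qX ∧ qX * qX = 1 ∧
    qX * qJ = qJ * qX ∧ qt * qX * qti * qJ ≠ qJ * (qt * qX * qti) ∧ qt * qX * qti * qJ ≠ -(qJ * (qt * qX * qti)) := by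
  decide +kernel

theorem qcom_keep : ∀ a b c e : ZMod 3, qcom a b c e * qcom a b c e = 1 →
    qg * qcom a b c e * qgi * qJ = qJ * (qg * qcom a b c e * qgi) ∨
      qg * qcom a b c e * qgi * qJ = -(qJ * (qg * qcom a b c e * qgi)) := by
  decide +kernel

theorem qanti_keep : ∀ a e : ZMod 3, qanti a e * qanti a e = 1 →
    qg * qanti a e * qgi * qJ = qJ * (qg * qanti a e * qgi) ∨
      qg * qanti a e * qgi * qJ = -(qJ * (qg * qanti a e * qgi)) := by
  decide +kernel

theorem three_square : ∀ x : ZMod 3, x ≠ 0 → x = -1 ∨ ∃ c, c * c = x := by decide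

/-- The classification of the frame. -/
theorem qkeep (X : M4) (hsa : Xᵀ * qJ = qJ * X) (hsq : X * X = 1) (hc : X * qJ = qJ * X ∨ X * qJ = -(qJ * X)) :
    qg * X * qgi * qJ = qJ * (qg * X * qgi) ∨ qg * X * qgi * qJ = -(qJ * (qg * X * qgi)) := by
  have hX : X = Matrix.fromBlocks X.toBlocks₁₁ X.toBlocks₁₂ X.toBlocks₂₁ X.toBlocks₂₂ := (Matrix.fromBlocks_toBlocks X).symm
  set A := X.toBlocks₁₁
  set B := X.toBlocks₁₂
  set C := X.toBlocks₂₁
  set D := X.toBlocks₂₂
  rw [hX, qJ, qmat, Matrix.fromBlocks_transpose, Matrix.fromBlocks_multiply, Matrix.fromBlocks_multiply,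
    Matrix.fromBlocks_inj] at hsa
  simp only [Matrix.mul_zero, Matrix.zero_mul, Matrix.mul_one, Matrix.one_mul, Matrix.mul_neg, Matrix.neg_mul,
    add_zero, zero_add] at hsa
  obtain ⟨hC, hA, hD, hB⟩ := hsa
  have hAD : D = Aᵀ := neg_injective (by rw [← hA])
  have two : ∀ x : ZMod 3, x = -x → x = 0 := by decide
  have skewB : B 0 0 = 0 ∧ B 1 1 = 0 ∧ B 1 0 = -B 0 1 := by
    have e : ∀ i j, B j i = -B i j := fun i j => by
      have := congrFun (congrFun hB i) j
      simp only [Matrix.neg_apply, Matrix.transpose_apply] at this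
      first
        | linear_combination this
        | linear_combination -this
    exact ⟨two _ (e 0 0), two _ (e 1 1), e 0 1⟩
  have skewC : C 0 0 = 0 ∧ C 1 1 = 0 ∧ C 1 0 = -C 0 1 := by
    have e : ∀ i j, C j i = -C i j := fun i j => by
      have := congrFun (congrFun hC i) j
      simp only [Matrix.neg_apply, Matrix.transpose_apply] at this
      first
        | linear_combination this
        | linear_combination -this
    exact ⟨two _ (e 0 0), two _ (e 1 1), e 0 1⟩
  rcases hc with hc | hc <;>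
    rw [hX, qJ, qmat, Matrix.fromBlocks_multiply, Matrix.fromBlocks_multiply] at hc <;>
    simp only [Matrix.fromBlocks_neg, Matrix.fromBlocks_inj, Matrix.mul_zero, Matrix.zero_mul, Matrix.mul_one,
      Matrix.one_mul, Matrix.mul_neg, Matrix.neg_mul, add_zero, zero_add, neg_neg] at hc <;>
    obtain ⟨h1, h2, h3, h4⟩ := hc
  · have key : X = qcom (A 0 0) (A 0 1) (A 1 1) (B 0 1) := by
      have a10 := congrFun (congrFun h2 0) 1
      have c01 := congrFun (congrFun h1 0) 1
      simp only [Matrix.neg_apply, hAD, Matrix.transpose_apply] at a10 c01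
      rw [hX, qcom, qmat, Matrix.fromBlocks_inj, hAD]
      obtain ⟨b00, b11, b10⟩ := skewB
      obtain ⟨c00, c11, c10⟩ := skewC
      refine ⟨?_, ?_, ?_, ?_⟩ <;> ext i j <;> fin_cases i <;> fin_cases j <;> simp [b00, b11, b10, c00, c11, c10] <;> first
        | linear_combination a10
        | linear_combination -a10
        | linear_combination c01
        | linear_combination -c01
    rw [key] at hsq ⊢
    exact qcom_keep _ _ _ _ hsq
  · have key : X = qanti (A 0 1) (B 0 1) := by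
      have a10 := congrFun (congrFun h2 0) 1
      have a00 := congrFun (congrFun h2 0) 0
      have a11 := congrFun (congrFun h2 1) 1
      have c01 := congrFun (congrFun h1 0) 1
      simp only [Matrix.neg_apply, hAD, Matrix.transpose_apply] at a10 a00 a11 c01
      have za : A 0 0 = 0 := two _ (by
        first
          | linear_combination a00
          | linear_combination -a00)
      have zd : A 1 1 = 0 := two _ (by
        first
          | linear_combination a11
          | linear_combination -a11)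
      rw [hX, qanti, qmat, Matrix.fromBlocks_inj, hAD]
      obtain ⟨b00, b11, b10⟩ := skewB
      obtain ⟨c00, c11, c10⟩ := skewC
      refine ⟨?_, ?_, ?_, ?_⟩ <;> ext i j <;> fin_cases i <;> fin_cases j <;> simp [za, zd, b00, b11, b10, c00, c11, c10] <;> first
        | linear_combination a10
        | linear_combination -a10
        | linear_combination c01
        | linear_combination -c01
    rw [key] at hsq ⊢
    exact qanti_keep _ _ hsq

end Model

variable {F : Type*} [Field F] [Fintype F]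

local notation "V" => (Fin 2 ⊕ Fin 2 → F)
local notation "Mx" => Matrix (Fin 2 ⊕ Fin 2) (Fin 2 ⊕ Fin 2) F
local notation "GLV" => GL (Fin 2 ⊕ Fin 2) F
local notation "BB" => sympB 2 F
local notation "JJ" => Matrix.J (Fin 2) F

theorem sp_of_matrix {g : GLV} (h : (g : Mx)ᵀ * JJ * (g : Mx) = JJ) : g ∈ Cfsg.spGL 2 F := fun u v => by
  show ((g : Mx) *ᵥ u) ⬝ᵥ (JJ *ᵥ ((g : Mx) *ᵥ v)) = u ⬝ᵥ (JJ *ᵥ v)
  conv_rhs => rw [← h, ← Matrix.mulVec_mulVec, ← Matrix.mulVec_mulVec, Matrix.dotProduct_mulVec u, Matrix.vecMul_transpose]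

theorem matrix_of_form {X Y : Mx} (h : ∀ u v : V, BB (X *ᵥ u) v = BB u (Y *ᵥ v)) : Xᵀ * JJ = JJ * Y := by
  ext i j
  have := h (Pi.single i 1) (Pi.single j 1)
  rw [sympB_apply, sympB_apply] at this
  change ((X *ᵥ Pi.single i 1) ⬝ᵥ (JJ *ᵥ Pi.single j 1) = Pi.single i 1 ⬝ᵥ (JJ *ᵥ (Y *ᵥ Pi.single j 1))) at this
  rw [Matrix.mulVec_mulVec, ← Matrix.vecMul_transpose X, ← Matrix.dotProduct_mulVec, Matrix.mulVec_mulVec] at this
  simpa using this

/-- Over three elements the normaliser of a quadratic extension structure of unitary type is not maximal. -/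
theorem unitary_three_false (hF : Fintype.card F = 3) {H : Subgroup GLV} (hH : IsMaximalIn (Cfsg.spGL 2 F) H)
    {K : Subalgebra F Mx} (hK : IsFieldSubalgebra 2 K) (hcl : IsAdjointClosedFor (Cfsg.sympForm 2 F) K)
    (hnsa : ¬ IsSelfAdjointFor (Cfsg.sympForm 2 F) K) (hle : H ≤ subalgebraNormalizer K) : False := by
  classical
  haveI : Fact (Nat.Prime 3) := ⟨Nat.prime_three⟩
  have hodd : Odd (Fintype.card F) := by rw [hF]; decide
  have h2 := AschRel.two_ne_of_odd hodd
  haveI : CharP F 3 := by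
    obtain ⟨p, hp⟩ := CharP.exists F
    haveI := hp
    haveI : Fact p.Prime := ⟨CharP.char_is_prime F p⟩
    obtain ⟨n, hn, hc⟩ := FiniteField.card F p
    rw [hF] at hc
    obtain rfl : p = 3 := (Nat.prime_dvd_prime_iff_eq hn Nat.prime_three).mp (hc ▸ dvd_pow_self p n.ne_zero)
    exact hp
  let φ : ZMod 3 →+* F := ZMod.castHom (dvd_refl 3) F
  have hφi : Function.Injective φ := φ.injective
  have hφs : Function.Surjective φ := ((Fintype.bijective_iff_injective_and_card φ).mpr ⟨hφi, by rw [ZMod.card, hF]⟩).2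
  let μ : Matrix (Fin 2 ⊕ Fin 2) (Fin 2 ⊕ Fin 2) (ZMod 3) →+* Mx := φ.mapMatrix
  have hμi : Function.Injective μ := fun A B h => Matrix.ext fun i j => hφi (congrFun (congrFun h i) j)
  have hμs : Function.Surjective μ := fun A => ⟨Matrix.of fun i j => (hφs (A i j)).choose, Matrix.ext fun i j =>
    (hφs (A i j)).choose_spec⟩
  have hμJ : μ qJ = JJ := by
    ext (i | i) (j | j) <;> fin_cases i <;> fin_cases j <;> simp [μ, qJ, qmat, Matrix.J, φ]
  have hμT : ∀ A, μ Aᵀ = (μ A)ᵀ := fun A => rfl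
  obtain ⟨j, δ, hjK, hnsq, hskew, hspan⟩ := SympQuadExt.exists_str (by norm_num) h2 K hK hcl hnsa
  have hδ : δ = -1 := by
    have hne : δ ≠ 0 := fun h => hnsq 0 (by rw [h, zero_mul])
    obtain ⟨x, rfl⟩ := hφs δ
    rcases three_square x (fun h => hne (by rw [h, map_zero])) with rfl | ⟨c, rfl⟩
    · rw [map_neg, map_one]
    · exact absurd (map_mul φ c c).symm (hnsq (φ c))
  subst hδ
  have hJ2 : JJ * JJ = -1 := Matrix.J_squared (Fin 2) F
  have hJskew : SympQuadExt.Skew (Matrix.toLin' JJ) (-1 : F) := by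
    refine ⟨fun v => by rw [Matrix.toLin'_apply, Matrix.toLin'_apply, Matrix.mulVec_mulVec, hJ2, Matrix.neg_mulVec,
      Matrix.one_mulVec, neg_smul, one_smul], fun u v => ?_⟩
    rw [sympB_apply, sympB_apply, Matrix.toLin'_apply, Matrix.toLin'_apply]
    show (JJ *ᵥ u) ⬝ᵥ (JJ *ᵥ v) = -(u ⬝ᵥ (JJ *ᵥ (JJ *ᵥ v)))
    rw [← Matrix.vecMul_transpose JJ u, ← Matrix.dotProduct_mulVec, Matrix.mulVec_mulVec, Matrix.mulVec_mulVec,
      Matrix.J_transpose, Matrix.neg_mul, Matrix.neg_mulVec, dotProduct_neg]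
  obtain ⟨P, hP, hPj⟩ := SympQuadExt.exists_conj hskew hJskew h2 (neg_ne_zero.mpr one_ne_zero)
  set P' : Mx := (((P⁻¹ : GLV)) : Mx)
  have hPP : (P : Mx) * P' = 1 := Units.mul_inv P
  have hP'P : P' * (P : Mx) = 1 := Units.inv_mul P
  have hPj' : (P : Mx) * j = JJ * (P : Mx) := Matrix.toLin'.injective (LinearMap.ext fun v => by
    have := hPj v
    simp only [Matrix.toLin'_apply, Matrix.mulVec_mulVec] at this ⊢
    exact this)
  have hjeq : j = P' * JJ * (P : Mx) := by rw [mul_assoc, ← hPj', ← mul_assoc, hP'P, one_mul]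
  -- the frame and its stabiliser
  let S : Set Mx := {X | (∀ u v : V, BB (X *ᵥ u) v = BB u (X *ᵥ v)) ∧ X * X = 1 ∧ (X * j = j * X ∨ X * j = -(j * X))}
  let N : Subgroup GLV :=
    { carrier := {g | ∀ X : Mx, X ∈ S ↔ (g : Mx) * X * ((g⁻¹ : GLV) : Mx) ∈ S}
      mul_mem' := fun {a b} ha hb X => by
        rw [hb X, ha, Units.val_mul, _root_.mul_inv_rev, Units.val_mul]
        constructor <;> intro h <;> simpa [mul_assoc] using h
      one_mem' := fun X => by simp
      inv_mem' := fun {a} ha X => by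
        have := ha (((a⁻¹ : GLV) : Mx) * X * (a : Mx))
        rw [show (a : Mx) * (((a⁻¹ : GLV) : Mx) * X * (a : Mx)) * ((a⁻¹ : GLV) : Mx) = X by
          simp [← mul_assoc, mul_assoc]] at this
        rw [inv_inv]
        exact this.symm }
  have hsa_conj : ∀ {g : GLV}, g ∈ Cfsg.spGL 2 F → ∀ {X : Mx}, (∀ u v : V, BB (X *ᵥ u) v = BB u (X *ᵥ v)) →
      ∀ u v : V, BB (((g : Mx) * X * ((g⁻¹ : GLV) : Mx)) *ᵥ u) v = BB u (((g : Mx) * X * ((g⁻¹ : GLV) : Mx)) *ᵥ v) := by
    intro g hg X hX u v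
    have hgi := mem_spGL_iff.mp (inv_mem hg)
    have hg' := mem_spGL_iff.mp hg
    conv_lhs => rw [show v = (g : Mx) *ᵥ (((g⁻¹ : GLV) : Mx) *ᵥ v) by rw [Matrix.mulVec_mulVec, Units.mul_inv, Matrix.one_mulVec]]
    conv_rhs => rw [show u = (g : Mx) *ᵥ (((g⁻¹ : GLV) : Mx) *ᵥ u) by rw [Matrix.mulVec_mulVec, Units.mul_inv, Matrix.one_mulVec]]
    rw [← Matrix.mulVec_mulVec, ← Matrix.mulVec_mulVec, hg', hX, ← Matrix.mulVec_mulVec, ← Matrix.mulVec_mulVec, hg']
  have hsq_conj : ∀ {g : GLV} {X : Mx}, X * X = 1 →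
      ((g : Mx) * X * ((g⁻¹ : GLV) : Mx)) * ((g : Mx) * X * ((g⁻¹ : GLV) : Mx)) = 1 := by
    intro g X hX
    simp only [mul_assoc, Units.inv_mul_cancel_left]
    rw [← mul_assoc X X, hX, one_mul, Units.mul_inv]
  have hsub : ∀ g ∈ Cfsg.spGL 2 F, (∀ X ∈ S, ((g : Mx) * X * ((g⁻¹ : GLV) : Mx)) * j = j * ((g : Mx) * X * ((g⁻¹ : GLV) : Mx)) ∨
      ((g : Mx) * X * ((g⁻¹ : GLV) : Mx)) * j = -(j * ((g : Mx) * X * ((g⁻¹ : GLV) : Mx)))) → g ∈ N := by
    intro g hg hgS
    have hfw : ∀ X ∈ S, (g : Mx) * X * ((g⁻¹ : GLV) : Mx) ∈ S := fun X hX =>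
      ⟨hsa_conj hg hX.1, hsq_conj hX.2.1, hgS X hX⟩
    have hpow : ∀ k : ℕ, ∀ X ∈ S, ((g ^ k : GLV) : Mx) * X * (((g ^ k)⁻¹ : GLV) : Mx) ∈ S := by
      intro k
      induction k with
      | zero => intro X hX; simpa using hX
      | succ k ih =>
        intro X hX
        have := hfw _ (ih X hX)
        rw [pow_succ', _root_.mul_inv_rev, Units.val_mul, Units.val_mul]
        simpa [mul_assoc] using this
    refine fun X => ⟨hfw X, fun h => ?_⟩
    have h2 := hpow (orderOf g - 1) _ h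
    rw [show g ^ (orderOf g - 1) = g⁻¹ from (inv_eq_of_mul_eq_one_right (by
      rw [← pow_succ', Nat.sub_add_cancel (orderOf_pos g), pow_orderOf_eq_one])).symm, inv_inv] at h2
    simpa [mul_assoc, Units.inv_mul_cancel_left] using h2
  -- the elements of `H`
  have hHj : ∀ h ∈ H, (h : Mx) * j * ((h⁻¹ : GLV) : Mx) = j ∨ (h : Mx) * j * ((h⁻¹ : GLV) : Mx) = -j := by
    intro h hh
    obtain ⟨a, b, hab⟩ := hspan _ ((hle hh j).mp hjK)
    have hjj : j * j = -1 := Matrix.toLin'.injective (LinearMap.ext fun v => by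
      have := hskew.sq v
      simp only [Matrix.toLin'_apply, Matrix.mulVec_mulVec, neg_smul, one_smul] at this ⊢
      rw [this, Matrix.neg_mulVec, Matrix.one_mulVec])
    have hsq : (a • (1 : Mx) + b • j) * (a • (1 : Mx) + b • j) = -1 := by
      rw [← hab]
      simp only [mul_assoc, Units.inv_mul_cancel_left]
      rw [← mul_assoc j j, hjj, neg_one_mul, Matrix.mul_neg, Units.mul_inv]
    have hns : ∀ c : F, j ≠ c • (1 : Mx) := fun c hc => hnsq c (by
      have := congrFun (congrFun hjj (Sum.inl 0)) (Sum.inl 0)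
      rw [hc] at this
      simpa using this)
    have hexp : (a * a - b * b + 1) • (1 : Mx) + (2 * a * b) • j = 0 := by
      simp only [add_mul, mul_add, smul_mul_assoc, mul_smul_comm, one_mul, mul_one, hjj] at hsq
      linear_combination (norm := module) hsq
    have hab0 : a * b = 0 := by
      by_contra hne
      refine hns (-(a * a - b * b + 1) / (2 * a * b)) ?_
      have h2ab : (2 : F) * a * b ≠ 0 := by rw [mul_assoc]; exact mul_ne_zero h2 hne
      rw [add_comm] at hexp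
      rw [div_eq_inv_mul, mul_smul, neg_smul, ← eq_neg_of_add_eq_zero_left hexp, inv_smul_smul₀ h2ab]
    rw [mul_assoc 2, hab0, mul_zero, zero_smul, add_zero] at hexp
    have hc := (smul_eq_zero.mp hexp).resolve_right one_ne_zero
    have hb : b ≠ 0 := by
      intro hb
      subst hb
      refine hnsq a ?_
      linear_combination hc
    have ha : a = 0 := (mul_eq_zero.mp hab0).resolve_right hb
    subst ha
    rcases mul_self_eq_one_iff.mp (show b * b = 1 by linear_combination -hc) with rfl | rfl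
    · left; rw [hab]; simp
    · right; rw [hab]; simp
  have hHN : H ≤ N := fun h hh => hsub h (hH.1.le hh) fun X hX => by
    obtain ⟨-, -, hc⟩ := hX
    set a := (h : Mx)
    set b := ((h⁻¹ : GLV) : Mx)
    have hab : b * a = 1 := Units.inv_mul h
    have hba : a * b = 1 := Units.mul_inv h
    obtain ⟨ε, hε, e⟩ : ∃ ε : F, ε * ε = 1 ∧ a * j = ε • (j * a) := by
      rcases hHj h hh with e | e
      · refine ⟨1, one_mul 1, ?_⟩
        rw [one_smul]
        conv_rhs => rw [← e]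
        rw [mul_assoc (a * j), hab, mul_one]
      · refine ⟨-1, by ring, ?_⟩
        rw [neg_one_smul, ← Matrix.neg_mul, ← e, mul_assoc (a * j), hab, mul_one]
    have e' : b * j = ε • (j * b) := by
      have h1 := congrArg (fun Y => b * Y * b) e
      simp only [Matrix.mul_smul, Matrix.smul_mul, ← mul_assoc, hab, one_mul] at h1
      simp only [mul_assoc, hba, mul_one] at h1
      rw [h1, smul_smul, hε, one_smul]
    obtain ⟨η, hη, hc'⟩ : ∃ η : F, (η = 1 ∨ η = -1) ∧ X * j = η • (j * X) := by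
      rcases hc with h0 | h0
      · exact ⟨1, Or.inl rfl, by rw [one_smul, h0]⟩
      · exact ⟨-1, Or.inr rfl, by rw [neg_one_smul, h0]⟩
    have key : a * X * b * j = η • (j * (a * X * b)) := by
      calc a * X * b * j = a * X * (b * j) := mul_assoc _ _ _
        _ = ε • (a * (X * j) * b) := by rw [e', Matrix.mul_smul]; simp only [mul_assoc]
        _ = (ε * η) • ((a * j) * X * b) := by
          rw [hc', Matrix.mul_smul, Matrix.smul_mul, smul_smul]; simp only [mul_assoc]
        _ = (ε * η * ε) • (j * (a * X * b)) := by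
          rw [e, Matrix.smul_mul, Matrix.smul_mul, smul_smul]; simp only [mul_assoc]
        _ = η • (j * (a * X * b)) := by rw [show ε * η * ε = η by linear_combination η * hε]
    rcases hη with rfl | rfl
    · exact Or.inl (by rw [key, one_smul])
    · exact Or.inr (by rw [key, neg_one_smul])
  -- two isometries from the model
  let g₀ : GLV := ⟨μ qg, μ qgi, by rw [← map_mul, qg_facts.1, map_one], by rw [← map_mul, qg_facts.2.1, map_one]⟩
  let t₀ : GLV := ⟨μ qt, μ qti, by rw [← map_mul, qt_facts.1, map_one], by rw [← map_mul, qt_facts.2.1, map_one]⟩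
  have hg₀ : g₀ ∈ Cfsg.spGL 2 F := sp_of_matrix (by
    show (μ qg)ᵀ * JJ * μ qg = JJ
    rw [← hμT, ← hμJ, ← map_mul, ← map_mul, qg_facts.2.2.1])
  have ht₀ : t₀ ∈ Cfsg.spGL 2 F := sp_of_matrix (by
    show (μ qt)ᵀ * JJ * μ qt = JJ
    rw [← hμT, ← hμJ, ← map_mul, ← map_mul, qt_facts.2.2.1])
  set g₁ : GLV := P⁻¹ * g₀ * P
  set t₁ : GLV := P⁻¹ * t₀ * P
  have hg₁ : g₁ ∈ Cfsg.spGL 2 F := mul_mem (mul_mem (inv_mem hP) hg₀) hP
  have ht₁ : t₁ ∈ Cfsg.spGL 2 F := mul_mem (mul_mem (inv_mem hP) ht₀) hP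
  have hcj : ∀ {X : Mx}, ((P : Mx) * X * P' * JJ = JJ * ((P : Mx) * X * P') ↔ X * j = j * X) ∧
      ((P : Mx) * X * P' * JJ = -(JJ * ((P : Mx) * X * P')) ↔ X * j = -(j * X)) := by
    intro X
    have l : (P : Mx) * X * P' * JJ = (P : Mx) * (X * j) * P' := by
      rw [hjeq]; simp only [mul_assoc]; rw [hPP, mul_one]
    have r : JJ * ((P : Mx) * X * P') = (P : Mx) * (j * X) * P' := by
      rw [hjeq, mul_assoc P', ← mul_assoc (P : Mx) (P' * _), ← mul_assoc (P : Mx) P', hPP, one_mul]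
      simp only [mul_assoc]
    have cancel : ∀ A B : Mx, (P : Mx) * A * P' = (P : Mx) * B * P' → A = B := fun A B h => by
      have h' := congrArg (fun Y => P' * Y * (P : Mx)) h
      simp only [mul_assoc, hP'P, mul_one] at h'
      simpa [← mul_assoc, hP'P] using h'
    rw [l, r, ← Matrix.neg_mul, ← Matrix.mul_neg]
    exact ⟨⟨cancel _ _, fun h => by rw [h]⟩, ⟨cancel _ _, fun h => by rw [h]⟩⟩
  have hPinvsa : ∀ {X : Mx}, (∀ u v : V, BB (X *ᵥ u) v = BB u (X *ᵥ v)) →
      ((P : Mx) * X * P')ᵀ * JJ = JJ * ((P : Mx) * X * P') := fun hX => matrix_of_form (hsa_conj hP hX)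
  have hg₁N : g₁ ∈ N := hsub g₁ hg₁ fun X hX => by
    obtain ⟨X', hX'⟩ := hμs ((P : Mx) * X * P')
    have h1 : X'ᵀ * qJ = qJ * X' := hμi (by rw [map_mul, map_mul, hμT, hμJ, hX']; exact hPinvsa hX.1)
    have h2 : X' * X' = 1 := hμi (by
      rw [map_mul, map_one, hX']
      exact hsq_conj (g := P) hX.2.1)
    have h3 : X' * qJ = qJ * X' ∨ X' * qJ = -(qJ * X') := by
      rcases hX.2.2 with h | h
      · exact Or.inl (hμi (by rw [map_mul, map_mul, hμJ, hX']; exact hcj.1.mpr h))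
      · exact Or.inr (hμi (by rw [map_mul, map_neg, map_mul, hμJ, hX']; exact hcj.2.mpr h))
    have e : (P : Mx) * ((g₁ : Mx) * X * ((g₁⁻¹ : GLV) : Mx)) * P' = μ (qg * X' * qgi) := by
      rw [map_mul, map_mul, hX']
      simp only [g₁, _root_.mul_inv_rev, inv_inv, Units.val_mul]
      show (P : Mx) * (P' * μ qg * (P : Mx) * X * (P' * (μ qgi * (P : Mx)))) * P' = μ qg * ((P : Mx) * X * P') * μ qgi
      simp only [← mul_assoc, hPP, one_mul]
      simp only [mul_assoc, hPP, mul_one]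
    rcases qkeep X' h1 h2 h3 with h | h
    · refine Or.inl (hcj.1.mp ?_)
      rw [e, ← hμJ, ← map_mul, ← map_mul]; exact congrArg μ h
    · refine Or.inr (hcj.2.mp ?_)
      rw [e, ← hμJ, ← map_mul, ← map_mul, ← map_neg]; exact congrArg μ h
  have htN : t₁ ∉ N := by
    intro ht
    obtain ⟨-, -, -, k1, k2, k3, k4, k5⟩ := qt_facts
    set X := P' * μ qX * (P : Mx)
    have hPX : (P : Mx) * X * P' = μ qX := by
      simp only [X, ← mul_assoc, hPP, one_mul]; rw [mul_assoc, hPP, mul_one]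
    have hsa : ∀ u v : V, BB (X *ᵥ u) v = BB u (X *ᵥ v) := by
      have hq : ∀ u v : V, BB ((μ qX) *ᵥ u) v = BB u ((μ qX) *ᵥ v) := by
        intro u v
        rw [sympB_apply, sympB_apply]
        show (μ qX *ᵥ u) ⬝ᵥ (JJ *ᵥ v) = u ⬝ᵥ (JJ *ᵥ (μ qX *ᵥ v))
        rw [Matrix.mulVec_mulVec, ← Matrix.vecMul_transpose, ← Matrix.dotProduct_mulVec, Matrix.mulVec_mulVec,
          ← hμT, ← hμJ, ← map_mul, ← map_mul, k1]
      have := hsa_conj (inv_mem hP) hq
      rwa [inv_inv] at this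
    have hXS : X ∈ S := ⟨hsa, by
      have := hsq_conj (g := P⁻¹) (X := μ qX) (by rw [← map_mul, k2, map_one])
      rwa [inv_inv] at this, Or.inl (hcj.1.mp (by rw [hPX, ← hμJ, ← map_mul, ← map_mul, k3]))⟩
    obtain ⟨-, -, hc⟩ := (ht X).mp hXS
    have e : (P : Mx) * ((t₁ : Mx) * X * ((t₁⁻¹ : GLV) : Mx)) * P' = μ (qt * qX * qti) := by
      rw [map_mul, map_mul, ← hPX]
      simp only [t₁, _root_.mul_inv_rev, inv_inv, Units.val_mul]
      show (P : Mx) * (P' * μ qt * (P : Mx) * X * (P' * (μ qti * (P : Mx)))) * P' = μ qt * ((P : Mx) * X * P') * μ qti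
      simp only [← mul_assoc, hPP, one_mul]
      simp only [mul_assoc, hPP, mul_one]
    rcases hc with h | h
    · refine k4 (hμi ?_)
      rw [map_mul _ (qt * qX * qti) qJ, map_mul _ qJ, hμJ, ← e]; exact hcj.1.mpr h
    · refine k5 (hμi ?_)
      rw [map_mul _ (qt * qX * qti) qJ, map_neg, map_mul _ qJ, hμJ, ← e]; exact hcj.2.mpr h
  have heq := MaxList.eq_of_le hH hHN fun hall => htN (hall ht₁)
  have hg₁H : g₁ ∈ H := heq.ge ⟨hg₁N, hg₁⟩
  have key : (μ qg * JJ = JJ * μ qg) ∨ (μ qg * JJ = -(JJ * μ qg)) := by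
    have e : (g₁ : Mx) * j * ((g₁⁻¹ : GLV) : Mx) = P' * (μ qg * JJ * μ qgi) * (P : Mx) := by
      simp only [g₁, _root_.mul_inv_rev, inv_inv, Units.val_mul]
      show P' * μ qg * (P : Mx) * j * (P' * (μ qgi * (P : Mx))) = _
      rw [mul_assoc (P' * μ qg) (P : Mx) j, hPj']
      simp only [mul_assoc]
      rw [← mul_assoc (P : Mx) P', hPP, one_mul]
    have hgg : μ qgi * μ qg = 1 := by rw [← map_mul, qg_facts.2.1, map_one]
    rcases hHj g₁ hg₁H with h | h <;> rw [e, hjeq] at h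
    · left
      have h' := congrArg (fun Y => (P : Mx) * Y * P' * μ qg) h
      simp only [← mul_assoc, hPP, one_mul] at h'
      simp only [mul_assoc, hPP, mul_one] at h'
      simpa [hgg] using h'
    · right
      have h' := congrArg (fun Y => (P : Mx) * Y * P' * μ qg) h
      simp only [Matrix.mul_neg, Matrix.neg_mul, ← mul_assoc, hPP, one_mul] at h'
      simp only [mul_assoc, hPP, mul_one] at h'
      simpa [hgg] using h'
  rcases key with h | h
  · exact qg_facts.2.2.2.1 (hμi (by rw [map_mul, map_mul, hμJ]; exact h))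
  · exact qg_facts.2.2.2.2 (hμi (by rw [map_mul, map_neg, map_mul, hμJ]; exact h))

end Cfsg.Agent.GeomClasses.SpCases
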