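import Cfsg.Agent.GeomClasses.SympMax

/-! # Geometric subgroups do not contain the symplectic group -/

set_option autoImplicit false
set_option linter.unusedSectionVars false

namespace Cfsg.Agent.GeomClasses.SpCases

open Matrix Cfsg.Geo Cfsg.Agent.Forms

variable {F : Type*} [Field F] {m : ℕ}

local notation "V" => (Fin m ⊕ Fin m → F)
local notation "Mx" => Matrix (Fin m ⊕ Fin m) (Fin m ⊕ Fin m) F
local notation "GLV" => GL (Fin m ⊕ Fin m) F
local notation "BB" => sympB m F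

theorem exists_one {x : V} (hx : x ≠ 0) : ∃ v : V, BB x v = 1 := by
  by_contra h
  push Not at h
  refine hx (isForm_symp.nondeg x fun w => ?_)
  by_contra hw
  exact h ((BB x w)⁻¹ • w) (by rw [map_smul, smul_eq_mul, inv_mul_cancel₀ hw])


theorem stab_not_full {W : Submodule F V} (h0 : W ≠ ⊥) (h1 : W ≠ ⊤) :
    ¬ Cfsg.spGL m F ≤ subspaceStabilizer W := by
  intro hle
  obtain ⟨w, hw, hw0⟩ := (Submodule.ne_bot_iff W).mp h0
  have key : ∀ z, BB w z ≠ 0 → z ∈ W := fun z hz => by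
    have h := mem_subspaceStabilizer_iff.mp (hle (spT_mem z 1)) w hw
    rw [spT_mulVec, W.add_mem_iff_right hw, one_mul, W.smul_mem_iff hz] at h
    exact h
  refine h1 (eq_top_iff.mpr fun z _ => ?_)
  obtain ⟨v, hv⟩ := exists_one hw0
  by_cases hz : BB w z = 0
  · have h2 := key (z + v) (by rw [map_add, hz, hv, zero_add]; exact one_ne_zero)
    simpa using W.sub_mem h2 (key v (by rw [hv]; exact one_ne_zero))
  · exact key z hz

theorem decomp_not_full {t k : ℕ} {D : Fin t → Submodule F V} (hD : IsMDecomposition k D) :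
    ¬ Cfsg.spGL m F ≤ decompositionStabilizer D := by
  intro hle
  have ht := hD.two_le
  have hdisj : ∀ i, ∀ y ∈ D i, y ∈ (⨆ l ≠ i, D l) → y = 0 := fun i y h1 h2 =>
    Submodule.disjoint_def.mp (iSupIndep_def.mp hD.indep i) y h1 h2
  have hne : ∀ i, D i ≠ ⊥ := fun i h => by
    have := hD.finrank_eq i
    rw [h, finrank_bot] at this
    have := hD.pos
    omega
  obtain ⟨x, hx, hx0⟩ := (Submodule.ne_bot_iff _).mp (hne ⟨0, by omega⟩)
  set i : Fin t := ⟨0, by omega⟩
  have contra : ∀ (v x' b' : V) (j : Fin t), j ≠ i → x' ∈ D i → x' ≠ 0 → b' ∈ D j → b' ≠ 0 →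
      x + BB x v • v = x' + b' → False := by
    intro v x' b' j hji hx' hx'0 hb' hb'0 heq
    obtain ⟨σ, hσ⟩ := hle (spT_mem v (1 : F))
    have hy : x' + b' ∈ D (σ i) := by
      rw [← heq, ← hσ i]
      refine ⟨x, hx, ?_⟩
      rw [Matrix.toLin'_apply, spT_mulVec, one_mul]
    by_cases hl : σ i = i
    · refine hb'0 (hdisj j b' hb' (Submodule.mem_iSup_of_mem i (Submodule.mem_iSup_of_mem (Ne.symm hji) ?_)))
      rw [hl] at hy
      simpa using (D i).sub_mem hy hx'
    · refine hx'0 (hdisj i x' hx' ?_)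
      have h1 : x' + b' ∈ ⨆ l ≠ i, D l := Submodule.mem_iSup_of_mem _ (Submodule.mem_iSup_of_mem hl hy)
      have h2 : b' ∈ ⨆ l ≠ i, D l := Submodule.mem_iSup_of_mem _ (Submodule.mem_iSup_of_mem hji hb')
      simpa using Submodule.sub_mem _ h1 h2
  by_cases hcase : ∃ j, j ≠ i ∧ ∃ b ∈ D j, BB x b ≠ 0
  · obtain ⟨j, hji, b, hb, hxb⟩ := hcase
    have hb0 : b ≠ 0 := fun h => hxb (by rw [h, map_zero])
    exact contra b x (BB x b • b) j hji hx hx0 ((D j).smul_mem _ hb) (smul_ne_zero hxb hb0) rfl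
  push Not at hcase
  obtain ⟨a, ha, hxa⟩ : ∃ a ∈ D i, BB x a = 1 := by
    obtain ⟨v, hv⟩ := exists_one hx0
    by_contra h
    push Not at h
    have hall : ∀ i' , ∀ y ∈ D i', BB x y = 0 := by
      intro i' y hy
      by_cases hi : i' = i
      · subst hi
        by_contra hy0
        exact h ((BB x y)⁻¹ • y) ((D i).smul_mem _ hy) (by rw [map_smul, smul_eq_mul, inv_mul_cancel₀ hy0])
      · exact hcase i' hi y hy
    have hker : (⨆ l, D l) ≤ LinearMap.ker (BB x) := iSup_le fun l y hy => hall l y hy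
    have hv0 : BB x v = 0 := hker (by rw [hD.iSup_eq_top]; trivial)
    exact one_ne_zero (hv.symm.trans hv0)
  let j : Fin t := ⟨1, by omega⟩
  have hji : j ≠ i := by simp [i, j]
  obtain ⟨b, hb, hb0⟩ := (Submodule.ne_bot_iff _).mp (hne j)
  refine contra (a + b) (x + a) b j hji ((D i).add_mem hx ha) (fun h => ?_) hb hb0 ?_
  · have : BB x (x + a) = 0 := by rw [h, map_zero]
    rw [map_add, hxa, sympB_self, zero_add] at this
    exact one_ne_zero this
  · rw [map_add, hxa, hcase j hji b hb, add_zero, one_smul, add_assoc]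

theorem eq_smul_one_of_eigen {ι : Type} [Fintype ι] [DecidableEq ι] (k : Matrix ι ι F)
    (h : ∀ v : ι → F, ∃ c : F, k *ᵥ v = c • v) : ∃ c : F, k = c • 1 := by
  rcases isEmpty_or_nonempty ι with hι | ⟨⟨a⟩⟩
  · exact ⟨0, Matrix.ext fun i => (hι.false i).elim⟩
  choose c hc using h
  have hcol : ∀ b i, k i b = c (Pi.single b 1) * (Pi.single b (1 : F) : ι → F) i := by
    intro b i
    have := congrFun (hc (Pi.single b 1)) i
    simpa [Matrix.mulVec_single] using this
  have hcc : ∀ b, c (Pi.single b 1) = c (Pi.single a 1) := by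
    intro b
    rcases eq_or_ne b a with rfl | hba
    · rfl
    have e1 := congrFun (hc (Pi.single a (1 : F) + Pi.single b 1)) a
    have e2 := congrFun (hc (Pi.single a (1 : F) + Pi.single b 1)) b
    rw [Matrix.mulVec_add, hc (Pi.single a 1), hc (Pi.single b 1)] at e1 e2
    simp [hba, hba.symm] at e1 e2
    exact e2.trans e1.symm
  refine ⟨c (Pi.single a 1), Matrix.ext fun i b => ?_⟩
  rw [hcol b i, hcc b, Matrix.smul_apply, Matrix.one_apply, smul_eq_mul]
  by_cases h : i = b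
  · subst h; simp
  · simp [h]

/-- A subgroup moving a non-scalar matrix only in large steps. -/
theorem conj_not_full {M : Subgroup GLV} {k : Mx} (hns : ∀ c : F, k ≠ c • 1)
    (hbig : ∀ g ∈ M, (g : Mx) * k ≠ k * (g : Mx) →
      ∃ φ : (Fin 3 → F) →ₗ[F] V, ∀ a : Fin 3 → F,
        ((g : Mx) * k * ((g⁻¹ : GLV) : Mx) - k) *ᵥ φ a = 0 → a = 0) :
    ¬ Cfsg.spGL m F ≤ M := by
  intro hle
  obtain ⟨v, hv0, hv⟩ : ∃ v : V, v ≠ 0 ∧ ∀ c : F, k *ᵥ v ≠ c • v := by
    by_contra h
    push Not at h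
    obtain ⟨c, hc⟩ := eq_smul_one_of_eigen k fun v => by
      rcases eq_or_ne v 0 with rfl | hv0
      · exact ⟨0, by simp⟩
      · exact h v hv0
    exact hns c hc
  set g := spT v (1 : F) with hg
  have hne : (g : Mx) * k ≠ k * (g : Mx) := by
    intro h
    obtain ⟨x, hx⟩ := exists_one (neg_ne_zero.mpr hv0 : -v ≠ 0)
    have hxv : BB x v = 1 := by rw [map_neg, LinearMap.neg_apply] at hx; rw [sympB_skew]; exact hx
    have := congrArg (fun A : Mx => A *ᵥ x) h
    simp only [← Matrix.mulVec_mulVec, g, spT_mulVec, one_mul, Matrix.mulVec_add, Matrix.mulVec_smul, add_right_inj, hxv,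
      one_smul] at this
    exact hv _ this.symm
  obtain ⟨φ, hφ⟩ := hbig g (hle (spT_mem _ _)) hne
  let L : (Fin 3 → F) →ₗ[F] F × F :=
    (((BB).flip v).comp φ).prod ((((BB).flip v).comp (Matrix.toLin' k)).comp φ)
  have hL : ∀ a, L a = 0 → a = 0 := by
    intro a ha
    obtain ⟨ha1, ha2⟩ := Prod.mk_eq_zero.mp ha
    replace ha : BB (φ a) v = 0 ∧ BB (k *ᵥ φ a) v = 0 := ⟨ha1, ha2⟩
    refine hφ a ?_
    have e : (g : Mx) *ᵥ φ a = φ a := by rw [spT_mulVec, ha.1, mul_zero, zero_smul, add_zero]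
    have e' : ((g⁻¹ : GLV) : Mx) *ᵥ φ a = φ a := by
      conv_lhs => rw [← e]
      rw [Matrix.mulVec_mulVec, ← Units.val_mul, inv_mul_cancel, Units.val_one, Matrix.one_mulVec]
    rw [Matrix.sub_mulVec, ← Matrix.mulVec_mulVec, ← Matrix.mulVec_mulVec, e', spT_mulVec, ha.2, mul_zero, zero_smul,
      add_zero, sub_self]
  have := LinearMap.finrank_le_finrank_of_injective (f := L)
    (LinearMap.ker_eq_bot.mp (LinearMap.ker_eq_bot'.mpr hL))
  simp at this

theorem field_not_full (hm : 2 ≤ m) {r : ℕ} (hr : 2 ≤ r) {K : Subalgebra F Mx} (hK : IsFieldSubalgebra r K) :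
    ¬ Cfsg.spGL m F ≤ subalgebraNormalizer K := by
  obtain ⟨k, hkK, hns⟩ : ∃ k ∈ K, ∀ c : F, k ≠ c • 1 := by
    by_contra h
    push Not at h
    have hle : K ≤ ⊥ := fun x hx => by
      obtain ⟨c, hc⟩ := h x hx
      exact Algebra.mem_bot.mpr ⟨c, by rw [hc, Algebra.algebraMap_eq_smul_one]⟩
    haveI : Nonempty (Fin m ⊕ Fin m) := ⟨Sum.inl ⟨0, by omega⟩⟩
    rw [eq_bot_iff.mpr hle] at hK
    have := hK.finrank_eq
    rw [Subalgebra.finrank_bot] at this
    omega
  refine conj_not_full hns fun g hg hne => ?_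
  set y := (g : Mx) * k * ((g⁻¹ : GLV) : Mx) - k
  have hy0 : y ≠ 0 := fun h => hne (by
    have := congrArg (· * (g : Mx)) (sub_eq_zero.mp h)
    simpa [mul_assoc] using this)
  obtain ⟨z, -, hz⟩ := hK.inv y (sub_mem ((hg k).mp hkK) hkK) hy0
  obtain ⟨σ⟩ : Nonempty (Fin 3 ↪ Fin m ⊕ Fin m) :=
    Function.Embedding.nonempty_of_card_le (by simp; omega)
  refine ⟨Function.ExtendByZero.linearMap F σ, fun a ha => ?_⟩
  have h0 := congrArg (z *ᵥ ·) ha
  simp only [Matrix.mulVec_mulVec, mul_eq_one_comm.mp hz, Matrix.one_mulVec, Matrix.mulVec_zero] at h0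
  funext i
  have := congrFun h0 (σ i)
  simpa [σ.injective.extend_apply] using this

theorem two_zero_of_even [Fintype F] (hq : ¬ Odd (Fintype.card F)) : (2 : F) = 0 := by
  by_contra h
  refine hq (Nat.odd_iff.mpr (FiniteField.odd_card_of_char_ne_two fun h2 => h ?_))
  haveI := (ringChar.eq_iff.mp h2 : CharP F 2)
  exact CharP.ofNat_eq_zero F 2

theorem quad_not_full [Fintype F] (hm : 2 ≤ m) (hq : ¬ Odd (Fintype.card F)) {Q : V → F}
    (hsm : ∀ (c : F) (v : V), Q (c • v) = c ^ 2 * Q v) (hpol : ∀ u v, QuadraticMap.polar Q u v = Cfsg.sympForm m F u v) :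
    ¬ Cfsg.spGL m F ≤ quadSimilarityGroup Q := by
  intro hle
  have hadd : ∀ u v, Q (u + v) = Q u + Q v + BB u v := fun u v => by
    rw [sympB_apply, ← hpol, QuadraticMap.polar]; ring
  have h20 := two_zero_of_even hq
  have hrc : ringChar F = 2 := by
    by_contra h
    exact hq (Nat.odd_iff.mpr (FiniteField.odd_card_of_char_ne_two h))
  -- a non-zero singular vector
  obtain ⟨v, hv0, hv⟩ : ∃ v : V, v ≠ 0 ∧ Q v = 0 := by
    let e : Fin m ⊕ Fin m → V := fun i => Pi.single i 1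
    let a := Sum.inl (β := Fin m) (⟨0, by omega⟩ : Fin m)
    let b := Sum.inl (β := Fin m) (⟨1, by omega⟩ : Fin m)
    by_cases ha : Q (e a) = 0
    · exact ⟨e a, by simp [e], ha⟩
    obtain ⟨s, hs⟩ := FiniteField.isSquare_of_char_two hrc (Q (e b) * (Q (e a))⁻¹)
    refine ⟨s • e a + e b, fun h => ?_, ?_⟩
    · have := congrFun h b
      simp [e, a, b] at this
    · have hab : BB (e a) (e b) = 0 := by
        simp [e, a, b, sympForm_eq]
      rw [hadd, hsm, map_smul, LinearMap.smul_apply, hab, smul_zero, add_zero, sq, ← hs, mul_assoc,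
        inv_mul_cancel₀ ha, mul_one]
      linear_combination Q (e b) * h20
  obtain ⟨x, hx⟩ := exists_one (neg_ne_zero.mpr hv0 : -v ≠ 0)
  have hxv : BB x v = 1 := by rw [map_neg, LinearMap.neg_apply] at hx; rw [sympB_skew]; exact hx
  obtain ⟨μ, hμ⟩ := hle (spT_mem v (1 : F))
  have hinv : ∀ y, Q (spT (m := m) v (1 : F) *ᵥ y : V) = Q y + BB y v * BB y v := fun y => by
    rw [spT_mulVec, one_mul, hadd, hsm, hv, mul_zero, add_zero, map_smul, smul_eq_mul]
  -- compare x and x + v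
  have h1 : (μ : F) * Q x = Q x + 1 := by rw [← hμ, hinv, hxv, mul_one]
  have h2 : (μ : F) * Q (x + v) = Q (x + v) + 1 := by
    rw [← hμ, hinv, map_add, LinearMap.add_apply, sympB_self, hxv, add_zero, mul_one]
  rw [hadd, hv, hxv] at h2
  have hμ1 : (μ : F) = 1 := by linear_combination h2 - h1
  rw [hμ1, one_mul] at h1
  exact one_ne_zero (by linear_combination -h1 : (1 : F) = 0)

theorem subfield_not_full [Fintype F] (hm : 2 ≤ m) {F₀ : Subfield F} {r : ℕ} (hr : r.Prime)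
    (hcard : Fintype.card F = Nat.card F₀ ^ r) (P : GLV) :
    ¬ Cfsg.spGL m F ≤ subfieldSubgroup F₀ P := by
  intro hle
  have hne : F₀ ≠ ⊤ := by
    intro h
    rw [h, Nat.card_congr (Equiv.subtypeUnivEquiv Subfield.mem_top), Nat.card_eq_fintype_card] at hcard
    have h1 := Fintype.one_lt_card (α := F)
    have := Nat.pow_lt_pow_right h1 hr.one_lt
    rw [pow_one, ← hcard] at this
    exact lt_irrefl _ this
  obtain ⟨a, ha⟩ : ∃ a, a ∉ F₀ := by
    by_contra h
    push Not at h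
    exact hne (eq_top_iff.mpr fun x _ => h x)
  let i : Fin m ⊕ Fin m := Sum.inl ⟨0, by omega⟩
  let ei : V := Pi.single i 1
  set Pm := (P : Mx)
  have hPinj : ∀ y, Pm *ᵥ y = 0 → y = 0 := fun y hy => by
    have := congrArg (((P⁻¹ : GLV) : Mx) *ᵥ ·) hy
    simpa [Pm, Matrix.mulVec_mulVec] using this
  set v : V := Pm *ᵥ ei
  have hv0 : v ≠ 0 := fun h => by simpa [ei] using hPinj _ h
  obtain ⟨j, hj⟩ : ∃ j, BB (Pm *ᵥ Pi.single j 1) v ≠ 0 := by
    by_contra h
    push Not at h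
    obtain ⟨x, hx⟩ := exists_one hv0
    have hall : ∀ y, BB (Pm *ᵥ y) v = 0 := fun y => by
      rw [pi_eq_sum_univ' y, Matrix.mulVec_sum, map_sum, LinearMap.sum_apply]
      exact Finset.sum_eq_zero fun l _ => by rw [Matrix.mulVec_smul, map_smul, LinearMap.smul_apply, h l, smul_zero]
    have := hall (((P⁻¹ : GLV) : Mx) *ᵥ x)
    rw [Matrix.mulVec_mulVec, show Pm * ((P⁻¹ : GLV) : Mx) = 1 by simp [Pm], Matrix.one_mulVec, sympB_skew, hx] at this
    exact one_ne_zero (neg_eq_zero.mp this)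
  have hij : j ≠ i := fun h => hj (by rw [h]; exact sympB_self _)
  set c := a * (BB (Pm *ᵥ Pi.single j 1) v)⁻¹
  obtain ⟨g, hg, hgP⟩ := hle (spT_mem v c)
  obtain ⟨g₀, ⟨G₀, rfl⟩, z, hz, rfl⟩ := Subgroup.mem_sup_of_normal_right.mp hg
  obtain ⟨s, hs⟩ := (mem_scalars_iff z).mp hz
  have hmat : ∀ l, ((spT v c : GLV) : Mx) *ᵥ (Pm *ᵥ Pi.single l 1) = Pm *ᵥ (fun l'' =>
      ((s : F) * ((G₀.val l'' l : F₀) : F))) := by
    intro l
    rw [← hgP]
    simp only [MulEquiv.coe_toMonoidHom, MulAut.conj_apply, Units.val_mul, hs, Pm]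
    rw [Matrix.mulVec_mulVec]
    simp only [mul_assoc, Units.inv_mul, mul_one]
    rw [← Matrix.mulVec_mulVec]
    congr 1
    funext l''
    simp [Matrix.mulVec_single]
  have hcol : ∀ l l'', (Pi.single l (1 : F) : V) l'' + c * BB (Pm *ᵥ Pi.single l 1) v * ei l'' =
      (s : F) * ((G₀.val l'' l : F₀) : F) := by
    intro l l''
    have h := hmat l
    rw [spT_mulVec, show v = Pm *ᵥ ei from rfl, ← Matrix.mulVec_smul, ← Matrix.mulVec_add] at h
    have := sub_eq_zero.mp (hPinj (((Pi.single l 1 + (c * BB (Pm *ᵥ Pi.single l 1) (Pm *ᵥ ei)) • ei) : V) -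
      fun l'' => (s : F) * ((G₀.val l'' l : F₀) : F)) (by rw [Matrix.mulVec_sub, h, sub_self]))
    have h2 := congrFun this l''
    simp only [Pi.add_apply, Pi.smul_apply, smul_eq_mul] at h2
    exact h2
  have hs0 : (s : F) ∈ F₀ := by
    have h := hcol j j
    simp [ei, hij] at h
    have : (s : F)⁻¹ ∈ F₀ := by rw [inv_eq_of_mul_eq_one_right h.symm]; exact Subtype.coe_prop _
    simpa using inv_mem this
  refine ha ?_
  have h := hcol j i
  simp only [ei, Pi.single_eq_same, Pi.single_eq_of_ne hij.symm, zero_add, mul_one, c, mul_assoc, inv_mul_cancel₀ hj] at h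
  rw [h]
  exact mul_mem hs0 (Subtype.coe_prop _)

end Cfsg.Agent.GeomClasses.SpCases
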