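import Cfsg.Agent.GeomClasses.SpCases.Cases
import Cfsg.Agent.GeomClasses.SmallDecomp

/-! # Decompositions into planes over two elements -/

set_option autoImplicit false
set_option linter.unusedSectionVars false

namespace Cfsg.Agent.GeomClasses.SpCases

open Matrix Cfsg.Geo Cfsg.Agent.Forms

variable {F : Type*} [Field F] [Fintype F] {m : ℕ}

local notation "V" => (Fin m ⊕ Fin m → F)
local notation "Mx" => Matrix (Fin m ⊕ Fin m) (Fin m ⊕ Fin m) F
local notation "GLV" => GL (Fin m ⊕ Fin m) F
local notation "fm" => Cfsg.sympForm m F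
local notation "BB" => sympB m F

theorem between_false {H T K : Subgroup GLV} (hH : IsMaximalIn (Cfsg.spGL m F) H) (hle : H ≤ T)
    (h1 : T < K) (h2 : K < Cfsg.spGL m F) : False := by
  have h3 : H < K := lt_of_le_of_lt hle h1
  rcases hH.2 K h3.le h2.le with h | h
  · exact h3.ne h.symm
  · exact h2.ne h

theorem planes_two_false (hq : Fintype.card F = 2) {H : Subgroup GLV} (hH : IsMaximalIn (Cfsg.spGL m F) H) {t : ℕ}
    (ht : 4 ≤ t) {D : Fin t → Submodule F V} (hD : IsNondegenerateMDecomposition fm 2 D)
    (hle : H ≤ decompositionStabilizer D) : False := by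
  classical
  obtain ⟨K, h1, h2⟩ := GeomClasses.exists_between_symp hq hD ht
  exact between_false hH (le_inf hle hH.1.le) h1 h2

open Classical in
/-- Over two elements the stabiliser of an orthogonal decomposition into planes preserves a quadratic form. -/
theorem planes_two_quad (hm : 2 ≤ m) (hq : Fintype.card F = 2) {H : Subgroup GLV} (hH : IsMaximalIn (Cfsg.spGL m F) H) {t : ℕ}
    {D : Fin t → Submodule F V} (hD : IsNondegenerateMDecomposition fm 2 D) (hle : H ≤ decompositionStabilizer D) :
    ∃ Q : V → F, IsNondegenerateQuadraticForm Q ∧ (∀ u v, QuadraticMap.polar Q u v = fm u v) ∧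
      H = quadSimilarityGroup Q ⊓ Cfsg.spGL m F := by
  have h2 : (2 : F) = 0 := by
    have h0 : (Fintype.card F : F) = 0 := Nat.cast_card_eq_zero F
    rw [hq] at h0; exact_mod_cast h0
  have hev : ¬ Odd (Fintype.card F) := by rw [hq]; decide
  have two : ∀ x : F, x = 0 ∨ x = 1 := fun x => by
    by_cases hx : x = 0
    · exact Or.inl hx
    · exact Or.inr (by simpa [hq] using FiniteField.pow_card_sub_one_eq_one x hx)
  have hint : DirectSum.IsInternal D :=
    (DirectSum.isInternal_submodule_iff_iSupIndep_and_iSup_eq_top D).mpr ⟨hD.decomp.indep, hD.decomp.iSup_eq_top⟩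
  let e := LinearEquiv.ofBijective (DirectSum.coeLinearMap D) hint
  let c : V → (i : Fin t) → D i := fun v i => e.symm v i
  have hsum : ∀ v, ∑ i, (c v i : V) = v := by
    intro v
    conv_rhs => rw [← e.apply_symm_apply v]
    show _ = DirectSum.coeLinearMap D (e.symm v)
    conv_rhs => rw [← DirectSum.sum_univ_of (e.symm v), map_sum]
    refine Finset.sum_congr rfl fun i _ => ?_
    exact (DirectSum.coeLinearMap_of D i _).symm
  have huniq : ∀ x : (i : Fin t) → D i, ∀ i, c (∑ j, (x j : V)) i = x i := by
    intro x i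
    have h : e (∑ j, DirectSum.of (fun j => D j) j (x j)) = ∑ j, (x j : V) := by
      rw [map_sum]
      exact Finset.sum_congr rfl fun j _ => DirectSum.coeLinearMap_of D j _
    show e.symm _ i = x i
    rw [← h, LinearEquiv.symm_apply_apply, DFinsupp.finsetSum_apply, Finset.sum_eq_single i]
    · exact DirectSum.of_eq_same i _
    · intro j _ hj; exact DirectSum.of_eq_of_ne j i _ hj.symm
    · intro h; exact absurd (Finset.mem_univ i) h
  let q : (i : Fin t) → D i → F := fun i x => if x = 0 then 0 else 1
  let Q : V → F := fun v => ∑ i, q i (c v i)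
  have hB : ∀ u v, BB u v = ∑ i, BB (c u i : V) (c v i : V) := by
    intro u v
    conv_lhs => rw [← hsum u, ← hsum v]
    simp only [map_sum, LinearMap.sum_apply]
    refine Finset.sum_congr rfl fun i _ => Finset.sum_eq_single i (fun j _ hj => ?_) fun h => absurd (Finset.mem_univ i) h
    rw [sympB_apply]
    exact hD.orthogonal j i hj _ (c u j).2 _ (c v i).2
  have hplane : ∀ i (x y : D i), q i (x + y) - q i x - q i y = BB (x : V) (y : V) := by
    intro i x y
    by_cases hx : x = 0
    · subst hx; simp [q, -sympB_apply]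
    by_cases hy : y = 0
    · subst hy; simp [q, -sympB_apply]
    by_cases hxy : x + y = 0
    · have hneg : y = -x := eq_neg_of_add_eq_zero_right hxy
      simp only [q, hx, hy, hxy, if_true, if_false]
      rw [hneg, Submodule.coe_neg, map_neg, sympB_self, neg_zero]
      linear_combination -h2
    have hne : BB (x : V) (y : V) = 1 := by
      refine (two _).resolve_left fun h0 => ?_
      have hli : LinearIndependent F ![x, y] := by
        rw [LinearIndependent.pair_iff]
        intro a b hab
        rcases two a with rfl | rfl <;> rcases two b with rfl | rfl <;> simp [hx, hy, hxy] at hab ⊢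
      let bas := basisOfLinearIndependentOfCardEqFinrank hli (by rw [hD.decomp.finrank_eq, Fintype.card_fin])
      have hb : ⇑bas = ![x, y] := coe_basisOfLinearIndependentOfCardEqFinrank _ _
      obtain ⟨-, z, hz, hne⟩ := hD.nondegenerate i (x : V) x.2 fun h => hx (Subtype.ext h)
      refine hne ?_
      have hz' := bas.sum_repr ⟨z, hz⟩
      rw [Fin.sum_univ_two, hb] at hz'
      have := congrArg Subtype.val hz'
      simp only [Matrix.cons_val_zero, Matrix.cons_val_one, Submodule.coe_add, Submodule.coe_smul] at this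
      rw [← sympB_apply, ← this, map_add, map_smul, map_smul, sympB_self, h0]
      simp
    simp only [q, hx, hy, hxy, if_false, hne]
    linear_combination -h2
  have hpol : ∀ u v, QuadraticMap.polar Q u v = fm u v := by
    intro u v
    rw [← sympB_apply, hB, QuadraticMap.polar]
    simp only [Q, ← Finset.sum_sub_distrib]
    refine Finset.sum_congr rfl fun i _ => ?_
    rw [← hplane i]
    have : c (u + v) i = c u i + c v i := by simp [c]
    rw [this]
  have hsm : ∀ (a : F) (v : V), Q (a • v) = a ^ 2 * Q v := by
    intro a v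
    rcases two a with rfl | rfl
    · simp [Q, q, c]
    · simp
  have hnd : IsNondegenerateQuadraticForm Q := by
    have hp : QuadraticMap.polar Q = fun u v => BB u v := funext fun u => funext fun v => by rw [hpol, sympB_apply]
    refine ⟨hsm, ?_, ?_⟩ <;> rw [hp]
    · exact ⟨fun x y v => by rw [map_add, LinearMap.add_apply], fun a x v => by rw [map_smul, LinearMap.smul_apply, smul_eq_mul],
        fun v x y => map_add _ _ _, fun a v x => by rw [map_smul, smul_eq_mul]⟩
    · intro v hv
      obtain ⟨x, hx⟩ := exists_one hv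
      exact ⟨⟨x, by show BB x v ≠ 0; rw [sympB_skew, hx]; exact neg_ne_zero.mpr one_ne_zero⟩,
        ⟨x, by show BB v x ≠ 0; rw [hx]; exact one_ne_zero⟩⟩
  have hle' : H ≤ quadSimilarityGroup Q := by
    intro g hg
    obtain ⟨σ, hσ⟩ := hle hg
    refine ⟨1, fun v => ?_⟩
    rw [Units.val_one, one_mul]
    have hmem : ∀ i, (g : Mx) *ᵥ (c v i : V) ∈ D (σ i) := fun i => by
      rw [← hσ i]; exact ⟨_, (c v i).2, Matrix.toLin'_apply _ _⟩
    let x : (j : Fin t) → D j := fun j => ⟨(g : Mx) *ᵥ (c v (σ.symm j) : V), by
      have := hmem (σ.symm j); rwa [Equiv.apply_symm_apply] at this⟩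
    have hgv : ∑ j, (x j : V) = (g : Mx) *ᵥ v := by
      conv_rhs => rw [← hsum v, Matrix.mulVec_sum]
      exact Equiv.sum_comp σ.symm (fun i => (g : Mx) *ᵥ (c v i : V))
    show ∑ j, q j (c _ j) = ∑ i, q i (c v i)
    rw [← hgv, ← Equiv.sum_comp σ.symm (fun i => q i (c v i))]
    refine Finset.sum_congr rfl fun j _ => ?_
    rw [huniq]
    have hiff : x j = 0 ↔ c v (σ.symm j) = 0 := by
      simp only [x, ← Subtype.coe_inj, ZeroMemClass.coe_zero]
      constructor
      · intro h
        have := congrArg (((g⁻¹ : GLV) : Mx) *ᵥ ·) h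
        simpa [Matrix.mulVec_mulVec] using this
      · intro h; rw [h, Matrix.mulVec_zero]
    simp only [q, hiff]
  exact ⟨Q, hnd, hpol, MaxList.eq_of_le hH hle' (quad_not_full hm hev hsm hpol)⟩

end Cfsg.Agent.GeomClasses.SpCases
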