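import Mathlib
import Cfsg.Agent.S0065

/-! # Two-groups of exponent four all of whose characteristic abelian subgroups are cyclic -/

set_option autoImplicit false

namespace Cfsg.Agent.GeomClasses.SpCases

open scoped commutatorElement

variable {G : Type*} [Group G]

/-- Either the derived group is central or there is a characteristic abelian subgroup above the centre. -/
theorem exists_char_above [Finite G] {p : ℕ} [Fact p.Prime] (hp : IsPGroup p G)
    (h : ¬ commutator G ≤ Subgroup.center G) :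
    ∃ T : Subgroup G, T.Characteristic ∧ IsMulCommutative T ∧ Subgroup.center G < T ∧
      T ≤ commutator G ⊔ Subgroup.center G ∧ (∀ a ∈ T, ∀ g : G, ⁅a, g⁆ ∈ Subgroup.center G) := by
  classical
  set Zc := Subgroup.center G
  set D : Subgroup G := commutator G ⊔ Zc with hD
  haveI : (commutator G).Characteristic := inferInstance
  haveI : D.Normal := by rw [hD]; infer_instance
  let π : G →* G ⧸ Zc := QuotientGroup.mk' Zc
  haveI : (D.map π).Normal := Subgroup.Normal.map inferInstance π (QuotientGroup.mk'_surjective Zc)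
  have hne : D.map π ≠ ⊥ := by
    rw [Ne, Subgroup.map_eq_bot_iff, QuotientGroup.ker_mk']
    exact fun hle => h (le_sup_left.trans hle)
  haveI : Group.IsNilpotent (G ⧸ Zc) := (hp.to_quotient Zc).isNilpotent
  obtain ⟨q, hq, hq1⟩ : ∃ q ∈ D.map π ⊓ Subgroup.center (G ⧸ Zc), q ≠ 1 :=
    (Subgroup.ne_bot_iff_exists_ne_one.mp (Cfsg.Agent.S0065.result _ hne)).elim
      fun q hq => ⟨q.1, q.2, fun h1 => hq (Subtype.ext h1)⟩
  obtain ⟨x, hxD, rfl⟩ := Subgroup.mem_map.mp hq.1
  let T : Subgroup G := D ⊓ (Subgroup.center (G ⧸ Zc)).comap π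
  have hfix : ∀ φ : G ≃* G, D.map φ.toMonoidHom = D := fun φ => by
    rw [hD, Subgroup.map_sup, Subgroup.characteristic_iff_map_eq.mp inferInstance φ,
      Subgroup.characteristic_iff_map_eq.mp inferInstance φ]
  have hmemC : ∀ x : G, π x ∈ Subgroup.center (G ⧸ Zc) ↔ ∀ g : G, ⁅x, g⁆ ∈ Zc := by
    intro x
    rw [Subgroup.mem_center_iff]
    constructor
    · intro hx g
      rw [← QuotientGroup.eq_one_iff, commutatorElement_def]
      show π (x * g * x⁻¹ * g⁻¹) = 1
      rw [map_mul, map_mul, map_mul, map_inv, map_inv, ← hx (π g)]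
      group
    · intro hx y
      obtain ⟨g, rfl⟩ := QuotientGroup.mk'_surjective Zc y
      have h1 : π ⁅x, g⁆ = 1 := (QuotientGroup.eq_one_iff _).mpr (hx g)
      rw [map_commutatorElement, commutatorElement_eq_one_iff_mul_comm] at h1
      exact h1.symm
  have hTchar : T.Characteristic := Subgroup.characteristic_iff_map_le.mpr fun φ => by
    rintro _ ⟨y, hy, rfl⟩
    refine ⟨hfix φ ▸ Subgroup.mem_map_of_mem _ hy.1, (hmemC _).mpr fun g => ?_⟩
    show ⁅φ y, g⁆ ∈ Zc
    have := (hmemC y).mp hy.2 (φ.symm g)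
    rw [show ⁅φ y, g⁆ = φ.toMonoidHom ⁅y, φ.symm g⁆ by
      rw [map_commutatorElement]; show _ = ⁅φ y, φ (φ.symm g)⁆; rw [φ.apply_symm_apply]]
    rw [← Subgroup.characteristic_iff_map_eq.mp (inferInstance : Zc.Characteristic) φ]
    exact Subgroup.mem_map_of_mem _ this
  have hTab : IsMulCommutative T := by
    refine ⟨⟨fun a b => Subtype.ext ?_⟩⟩
    have ha : ∀ g, ⁅(a : G), g⁆ ∈ Zc := (hmemC _).mp a.2.2
    let φa : G →* Zc := MonoidHom.mk' (fun g => ⟨⁅(a : G), g⁆, ha g⟩) fun g g' => Subtype.ext (by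
      show ⁅(a : G), g * g'⁆ = ⁅(a : G), g⁆ * ⁅(a : G), g'⁆
      have hc := Subgroup.mem_center_iff.mp (ha g') g
      calc ⁅(a : G), g * g'⁆ = ⁅(a : G), g⁆ * (g * ⁅(a : G), g'⁆ * g⁻¹) := by simp only [commutatorElement_def]; group
        _ = _ := by rw [hc]; group)
    have hbk : (b : G) ∈ φa.ker := by
      refine (sup_le (?_ : commutator G ≤ φa.ker) ?_) b.2.1
      · letI : CommGroup Zc := { (inferInstance : Group Zc) with mul_comm := fun u v => Subtype.ext (Subgroup.mem_center_iff.mp v.2 u) }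
        exact Abelianization.commutator_subset_ker φa
      · intro z hz
        refine MonoidHom.mem_ker.mpr (Subtype.ext ?_)
        show ⁅(a : G), z⁆ = 1
        exact commutatorElement_eq_one_iff_mul_comm.mpr (Subgroup.mem_center_iff.mp hz a)
    exact commutatorElement_eq_one_iff_mul_comm.mp (congrArg Subtype.val (MonoidHom.mem_ker.mp hbk))
  refine ⟨T, hTchar, hTab, lt_of_le_of_ne (fun z hz => ⟨Subgroup.mem_sup_right hz, ?_⟩) fun he => ?_, inf_le_left,
    fun a ha => (hmemC a).mp ha.2⟩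
  · show π z ∈ Subgroup.center (G ⧸ Zc)
    rw [show π z = 1 from (QuotientGroup.eq_one_iff z).mpr hz]; exact one_mem _
  · exact hq1 ((QuotientGroup.eq_one_iff x).mpr (he.ge ⟨hxD, hq.2⟩))

/-- Commutators in a group with an abelian subgroup of index two. -/
theorem commutator_form (A : Subgroup G) (hA : ∀ a ∈ A, ∀ b ∈ A, a * b = b * a) {g : G} (hg : g ∉ A)
    (hi : A.index = 2) {x : G} (hx : x ∈ commutator G) : ∃ a ∈ A, x = a⁻¹ * (g * a * g⁻¹) := by
  haveI := Subgroup.normal_of_index_eq_two hi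
  have hconj : ∀ a ∈ A, g * a * g⁻¹ ∈ A := fun a ha => Subgroup.Normal.conj_mem inferInstance a ha g
  have hsq : g * g ∈ A := Subgroup.mul_self_mem_of_index_two hi g
  have hinvol : ∀ a ∈ A, g * (g * a * g⁻¹) * g⁻¹ = a := fun a ha => by
    rw [show g * (g * a * g⁻¹) * g⁻¹ = (g * g) * a * (g * g)⁻¹ by group, hA _ hsq a ha]; group
  let S : Subgroup G :=
    { carrier := {x | ∃ a ∈ A, x = a⁻¹ * (g * a * g⁻¹)}
      mul_mem' := by
        rintro _ _ ⟨a, ha, rfl⟩ ⟨b, hb, rfl⟩
        refine ⟨a * b, mul_mem ha hb, ?_⟩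
        calc a⁻¹ * (g * a * g⁻¹) * (b⁻¹ * (g * b * g⁻¹))
            = a⁻¹ * ((g * a * g⁻¹) * b⁻¹) * (g * b * g⁻¹) := by group
          _ = a⁻¹ * (b⁻¹ * (g * a * g⁻¹)) * (g * b * g⁻¹) := by rw [hA _ (hconj a ha) _ (inv_mem hb)]
          _ = (b * a)⁻¹ * (g * (a * b) * g⁻¹) := by group
          _ = _ := by rw [hA b hb a ha]
      one_mem' := ⟨1, one_mem A, by group⟩
      inv_mem' := by
        rintro _ ⟨a, ha, rfl⟩
        refine ⟨a⁻¹, inv_mem ha, ?_⟩
        calc (a⁻¹ * (g * a * g⁻¹))⁻¹ = (g * a⁻¹ * g⁻¹) * a := by group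
          _ = a * (g * a⁻¹ * g⁻¹) := hA _ (hconj _ (inv_mem ha)) _ ha
          _ = _ := by group }
  suffices h : commutator G ≤ S from h hx
  rw [commutator_eq_closure, Subgroup.closure_le]
  rintro _ ⟨x, y, rfl⟩
  have hcase : ∀ z : G, z ∈ A ∨ ∃ a ∈ A, z = g * a := by
    intro z
    by_cases hz : z ∈ A
    · exact Or.inl hz
    · refine Or.inr ⟨g⁻¹ * z, ?_, (mul_inv_cancel_left g z).symm⟩
      exact (Subgroup.mul_mem_iff_of_index_two hi).mpr (by simp [hg, hz])
  have h1 : ∀ a ∈ A, ∀ b ∈ A, ⁅a, g * b⁆ ∈ S := fun a ha b hb => by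
    refine ⟨a⁻¹, inv_mem ha, ?_⟩
    rw [inv_inv, commutatorElement_def, show a * (g * b) * a⁻¹ * (g * b)⁻¹ = a * g * (b * a⁻¹) * b⁻¹ * g⁻¹ by group,
      hA b hb a⁻¹ (inv_mem ha)]
    group
  rcases hcase x with hxA | ⟨a, ha, rfl⟩ <;> rcases hcase y with hyA | ⟨b, hb, rfl⟩
  · show ⁅x, y⁆ ∈ S
    rw [commutatorElement_eq_one_iff_mul_comm.mpr (hA x hxA y hyA)]
    exact one_mem S
  · exact h1 x hxA b hb
  · show ⁅g * a, y⁆ ∈ S
    rw [← commutatorElement_inv]
    exact inv_mem (h1 y hyA a ha)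
  · refine ⟨a * b⁻¹, mul_mem ha (inv_mem hb), ?_⟩
    have hu : b * a⁻¹ ∈ A := mul_mem hb (inv_mem ha)
    calc ⁅g * a, g * b⁆ = (g * a * g⁻¹) * (g * (g * (b * a⁻¹) * g⁻¹) * g⁻¹) * (g * b⁻¹ * g⁻¹) := by
          rw [commutatorElement_def]; group
      _ = (g * a * g⁻¹) * (b * a⁻¹) * (g * b⁻¹ * g⁻¹) := by rw [hinvol _ hu]
      _ = (b * a⁻¹) * (g * a * g⁻¹) * (g * b⁻¹ * g⁻¹) := by rw [hA _ (hconj a ha) _ hu]
      _ = _ := by group

theorem twist_of_cyclic [Finite G] (hp : IsPGroup 2 G) (h4 : ∀ x : G, x ^ 4 = 1)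
    (hcyc : ∀ A : Subgroup G, A.Characteristic → IsMulCommutative A → IsCyclic A)
    (hz : Nat.card (Subgroup.center G) = 2) : commutator G ≤ Subgroup.center G := by
  classical
  haveI : Fact (Nat.Prime 2) := ⟨Nat.prime_two⟩
  have hsmall : ∀ A : Subgroup G, A.Characteristic → IsMulCommutative A → Nat.card A ∣ 4 := fun A h1 h2 => by
    haveI := hcyc A h1 h2
    rw [← IsCyclic.exponent_eq_card]
    exact Monoid.exponent_dvd_of_forall_pow_eq_one fun a => Subtype.ext (by simpa using h4 a)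
  by_contra hcon
  obtain ⟨T, hTc, hTa, hZT, hTD, hTZ⟩ := exists_char_above hp hcon
  have hT4 : Nat.card T = 4 := by
    have h1 := hsmall T hTc hTa
    have h2 : 2 < Nat.card T := by
      rw [← hz]
      exact lt_of_le_of_ne (Subgroup.card_le_of_le hZT.le) fun h => hZT.ne (Subgroup.eq_of_le_of_card_ge hZT.le h.ge)
    have h3 := Nat.le_of_dvd (by norm_num) h1
    interval_cases hn : Nat.card T <;> omega
  haveI := hcyc T hTc hTa
  obtain ⟨⟨t, ht⟩, hgen⟩ := IsCyclic.exists_generator (α := T)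
  have hord : orderOf t = 4 := by
    rw [← Subgroup.orderOf_mk t ht, orderOf_eq_card_of_forall_mem_zpowers hgen, hT4]
  have htpow : ∀ a ∈ T, ∃ i : ℤ, a = t ^ i := fun a ha => by
    obtain ⟨i, hi⟩ := Subgroup.mem_zpowers_iff.mp (hgen ⟨a, ha⟩)
    exact ⟨i, (congrArg Subtype.val hi).symm⟩
  have htZ : t ∉ Subgroup.center G := fun h => hZT.not_ge fun a ha => by
    obtain ⟨i, rfl⟩ := htpow a ha
    exact zpow_mem h i
  have ht2 : t * t ≠ 1 := fun h => by
    have := orderOf_dvd_of_pow_eq_one (show t ^ 2 = 1 by rw [pow_two]; exact h)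
    rw [hord] at this
    omega
  -- the two elements of the centre
  have hcent : ∀ z ∈ Subgroup.center G, z = 1 ∨ z = t * t := by
    intro z hzm
    obtain ⟨i, rfl⟩ := htpow z (hZT.le hzm)
    have hi : t ^ i = t ^ (i % 4) := by
      conv_lhs => rw [show i = i % 4 + 4 * (i / 4) by omega, zpow_add, zpow_mul, show t ^ (4 : ℤ) = 1 by exact_mod_cast h4 t, one_zpow, mul_one]
    rcases (show i % 4 = 0 ∨ i % 4 = 1 ∨ i % 4 = 2 ∨ i % 4 = 3 by omega) with h | h | h | h <;> rw [hi, h] at hzm ⊢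
    · exact Or.inl (zpow_zero t)
    · exact absurd (by simpa using hzm) htZ
    · exact Or.inr (by rw [zpow_two])
    · refine absurd ?_ htZ
      have h3 := inv_mem hzm
      rw [← zpow_neg] at h3
      have : t ^ (-(3 : ℤ)) = t := by
        rw [show (-(3:ℤ)) = 1 + 4 * (-1) by norm_num, zpow_add, zpow_one, zpow_mul,
          show t ^ (4 : ℤ) = 1 by exact_mod_cast h4 t, one_zpow, mul_one]
      rwa [this] at h3
  set C := Subgroup.centralizer (T : Set G)
  haveI hCc : C.Characteristic := inferInstance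
  have hCmem : ∀ c, c ∈ C ↔ c * t = t * c := by
    intro c
    refine ⟨fun h => (Subgroup.mem_centralizer_iff.mp h t ht).symm, fun h => Subgroup.mem_centralizer_iff.mpr fun a ha => ?_⟩
    obtain ⟨i, rfl⟩ := htpow a ha
    exact ((show Commute c t from h).zpow_right i).symm
  have hinv : ∀ g, g ∉ C → g * t * g⁻¹ = t⁻¹ := fun g hg => by
    have h := hcent _ (hTZ t ht g)
    rw [commutatorElement_def] at h
    rcases h with h | h
    · exact absurd ((hCmem g).mpr (commutatorElement_eq_one_iff_mul_comm.mp (by rw [commutatorElement_def]; exact h)).symm) hg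
    · have e : g * t⁻¹ * g⁻¹ = t := mul_left_cancel (a := t) (by rw [← h]; group)
      calc g * t * g⁻¹ = (g * t⁻¹ * g⁻¹)⁻¹ := by group
        _ = t⁻¹ := by rw [e]
  obtain ⟨g, hg⟩ : ∃ g, g ∉ C := by
    by_contra h
    push Not at h
    exact htZ (Subgroup.mem_center_iff.mpr fun c => (hCmem c).mp (h c))
  have hidx : C.index = 2 := by
    refine Subgroup.index_eq_two_iff.mpr ⟨g, fun b => ?_⟩
    by_cases hb : b ∈ C
    · exact Or.inr ⟨hb, fun h => hg (by simpa using mul_mem (inv_mem hb) h)⟩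
    · refine Or.inl ⟨(hCmem _).mpr ?_, hb⟩
      have e : (b * g) * t * (b * g)⁻¹ = t := by
        calc (b * g) * t * (b * g)⁻¹ = b * (g * t * g⁻¹) * b⁻¹ := by group
          _ = b * t⁻¹ * b⁻¹ := by rw [hinv g hg]
          _ = (b * t * b⁻¹)⁻¹ := by group
          _ = t := by rw [hinv b hb, inv_inv]
      exact mul_inv_eq_iff_eq_mul.mp e
  -- the derived group and centre of `C`
  have hCT : ∀ a ∈ C, ∀ b ∈ C, ⁅a, b⁆ ∈ T := by
    have hchar : ∀ A : Subgroup C, A.Characteristic → IsMulCommutative A → Nat.card A ∣ 4 := by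
      intro A h1 h2
      rw [← Subgroup.card_subtype C A]
      refine hsmall (A.map C.subtype) inferInstance ⟨⟨?_⟩⟩
      rintro ⟨_, a, ha, rfl⟩ ⟨_, b, hb, rfl⟩
      exact Subtype.ext (congrArg (fun x : A => ((x : C) : G)) (h2.is_comm.comm ⟨a, ha⟩ ⟨b, hb⟩))
    have hTC : T ≤ C := fun a ha => (hCmem a).mpr (by
      obtain ⟨i, rfl⟩ := htpow a ha
      exact ((Commute.refl t).zpow_left i).eq)
    have hzC : ∀ a : C, (a : G) ∈ T → a ∈ Subgroup.center C := fun a ha => Subgroup.mem_center_iff.mpr fun c =>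
      Subtype.ext (Subgroup.mem_centralizer_iff.mp c.2 _ ha).symm
    have hle : T.subgroupOf C ≤ Subgroup.center C := fun a ha => hzC a ha
    have hcard : Nat.card (T.subgroupOf C) = 4 := by
      rw [Nat.card_congr (Subgroup.subgroupOfEquivOfLe hTC).toEquiv, hT4]
    haveI : IsMulCommutative (Subgroup.center C) := inferInstance
    have h1 := Nat.le_of_dvd (by norm_num) (hchar (Subgroup.center C) inferInstance inferInstance)
    have heq : T.subgroupOf C = Subgroup.center C := Subgroup.eq_of_le_of_card_ge hle (hcard ▸ h1)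
    have hcom : commutator C ≤ Subgroup.center C := by
      by_contra hc
      obtain ⟨T', h2, h3, h4', -, -⟩ := exists_char_above (hp.to_subgroup C) hc
      have h5 := Nat.le_of_dvd (by norm_num) (hchar T' h2 h3)
      exact h4'.ne (Subgroup.eq_of_le_of_card_ge h4'.le (by rw [← heq, hcard]; exact h5))
    intro a ha b hb
    have := hcom (Subgroup.commutator_mem_commutator (Subgroup.mem_top (⟨a, ha⟩ : C)) (Subgroup.mem_top (⟨b, hb⟩ : C)))
    rw [← heq] at this
    exact this
  have hCT' : ∀ v ∈ T, ∀ c ∈ C, Commute c v := fun v hv c hc => (Subgroup.mem_centralizer_iff.mp hc v hv).symm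
  have hCab : ∀ a ∈ C, ∀ b ∈ C, ⁅a, b⁆ ∈ Subgroup.center G := by
    intro a ha b hb
    set v := ⁅a, b⁆
    have hv := hCT a ha b hb
    have hv4 := h4 v
    -- `(b a) ^ 4 = v ^ 2`
    have e1 : a * b = v * (b * a) := by simp only [v, commutatorElement_def]; group
    have ca := hCT' v hv a ha
    have cb := hCT' v hv b hb
    have e2 : (b * a) * (b * a) = v * (b * b * (a * a)) := by
      calc (b * a) * (b * a) = b * (a * b) * a := by group
        _ = (b * v) * (b * a) * a := by rw [e1]; group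
        _ = _ := by rw [cb.eq]; group
    have e3 : a * a * (b * b) = b * b * (a * a) := by
      have e4 : (a * a) * (b * b) = v ^ 4 * ((b * b) * (a * a)) := by
        calc (a * a) * (b * b) = a * (a * b) * b := by group
          _ = a * v * (b * a) * b := by rw [e1]; group
          _ = v * (a * b) * (a * b) := by rw [ca.eq]; group
          _ = v * (v * (b * a)) * (v * (b * a)) := by rw [e1]
          _ = v * v * ((b * a) * v) * (b * a) := by group
          _ = v * v * (v * (b * a)) * (b * a) := by rw [(cb.mul_left ca).eq]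
          _ = v * v * v * ((b * a) * (b * a)) := by group
          _ = v ^ 4 * ((b * b) * (a * a)) := by rw [e2]; simp [pow_succ, mul_assoc]
      rwa [hv4, one_mul] at e4
    have cbb : Commute v (b * b * (a * a)) := ((cb.mul_left cb).mul_left (ca.mul_left ca)).symm
    have e5 : (b * a) ^ 4 = v ^ 2 := by
      have c2 : Commute (b * b) (a * a) := e3.symm
      calc (b * a) ^ 4 = ((b * a) * (b * a)) ^ 2 := by rw [← pow_two, ← pow_mul]
        _ = v ^ 2 * ((b * b) ^ 2 * (a * a) ^ 2) := by rw [e2, cbb.mul_pow, c2.mul_pow]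
        _ = v ^ 2 := by rw [← pow_two b, ← pow_two a, ← pow_mul, ← pow_mul, h4 b, h4 a, one_mul, mul_one]
    rw [h4] at e5
    obtain ⟨i, hi⟩ := htpow v hv
    rw [hi] at e5 ⊢
    have h2i : t ^ (2 * i) = 1 := by
      rw [mul_comm, zpow_mul, zpow_two, ← pow_two]; exact e5.symm
    have hdvd : (4 : ℤ) ∣ 2 * i := by
      have := orderOf_dvd_iff_zpow_eq_one.mpr h2i
      rwa [hord] at this
    obtain ⟨j, rfl⟩ : ∃ j, i = 2 * j := ⟨i / 2, by omega⟩
    have hz2 : t * t ∈ Subgroup.center G := by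
      haveI : Nontrivial (Subgroup.center G) := Finite.one_lt_card_iff_nontrivial.mp (by rw [hz]; norm_num)
      obtain ⟨⟨z, hzm⟩, hz1⟩ := exists_ne (1 : Subgroup.center G)
      rcases hcent z hzm with h | h
      · exact absurd (Subtype.ext h) hz1
      · exact h ▸ hzm
    rw [zpow_mul, zpow_two]
    exact zpow_mem hz2 j
  -- pass to the quotient by the centre
  set Zc := Subgroup.center G
  let π : G →* G ⧸ Zc := QuotientGroup.mk' Zc
  have hZC : Zc ≤ C := Subgroup.center_le_centralizer _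
  have hπC : ∀ x : G, π x ∈ C.map π → x ∈ C := by
    rintro x ⟨c, hc, he⟩
    have := hZC (QuotientGroup.eq.mp he)
    simpa using mul_mem hc this
  have hidx' : (C.map π).index = 2 := by
    rw [Subgroup.index_map, QuotientGroup.ker_mk', sup_of_le_left hZC,
      MonoidHom.range_eq_top.mpr (QuotientGroup.mk'_surjective Zc), Subgroup.index_top, mul_one, hidx]
  have htin : π t ∈ commutator (G ⧸ Zc) := by
    have h1 : π t ∈ (commutator G ⊔ Zc).map π := Subgroup.mem_map_of_mem _ (hTD ht)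
    rw [Subgroup.map_sup, QuotientGroup.map_mk'_self, sup_bot_eq] at h1
    exact Subgroup.map_mono (le_refl _) h1 |> fun h => by
      rw [commutator_def, Subgroup.map_commutator, Subgroup.map_top_of_surjective _ (QuotientGroup.mk'_surjective Zc)] at h
      exact h
  obtain ⟨_, ⟨c, hc, rfl⟩, he⟩ := commutator_form (C.map π) (by
      rintro _ ⟨a, ha, rfl⟩ _ ⟨b, hb, rfl⟩
      rw [← commutatorElement_eq_one_iff_mul_comm, ← map_commutatorElement]
      exact (QuotientGroup.eq_one_iff _).mpr (hCab a ha b hb))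
    (g := π g) (fun h => hg (hπC g h)) hidx' htin
  rw [← map_inv π c, ← map_inv π g, ← map_mul, ← map_mul, ← map_mul] at he
  -- `c⁻¹ g c g⁻¹ = t z`
  obtain ⟨u, hu, heu⟩ : ∃ u, (u = t ∨ u = t⁻¹) ∧ c⁻¹ * (g * c * g⁻¹) = u := by
    have h1 : t⁻¹ * (c⁻¹ * (g * c * g⁻¹)) ∈ Zc := QuotientGroup.eq.mp he
    refine ⟨_, ?_, rfl⟩
    rcases hcent _ h1 with h | h
    · exact Or.inl (inv_mul_eq_one.mp h).symm
    · refine Or.inr ?_
      rw [inv_mul_eq_iff_eq_mul.mp h, eq_inv_iff_mul_eq_one, ← mul_assoc]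
      have := h4 t
      simpa [pow_succ, mul_assoc] using this
  have hu2 : u * u = t * t := by
    rcases hu with rfl | rfl
    · rfl
    · rw [← mul_inv_rev, inv_eq_iff_mul_eq_one, ← h4 t]
      simp [pow_succ, mul_assoc]
  have huC : ∀ x ∈ C, Commute x u := fun x hx => by
    rcases hu with rfl | rfl
    · exact (hCmem x).mp hx
    · exact Commute.inv_right ((hCmem x).mp hx)
  have hgu : g * u * g⁻¹ = u⁻¹ := by
    rcases hu with rfl | rfl
    · exact hinv g hg
    · rw [← conj_inv, hinv g hg]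
  have hgc : g * c * g⁻¹ = c * u := by rw [← heu]; group
  have hgg : Commute (g * g) c := by
    have : g * g * c * (g * g)⁻¹ = c := by
      calc g * g * c * (g * g)⁻¹ = g * (g * c * g⁻¹) * g⁻¹ := by group
        _ = g * (c * u) * g⁻¹ := by rw [hgc]
        _ = (g * c * g⁻¹) * (g * u * g⁻¹) := by group
        _ = c := by rw [hgc, hgu, mul_inv_cancel_right]
    exact mul_inv_eq_iff_eq_mul.mp this
  -- the square of `c g`
  have e1 : (c * g) * (c * g) = u * ((c * c) * (g * g)) := by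
    calc (c * g) * (c * g) = c * (g * c * g⁻¹) * (g * g) := by group
      _ = c * (c * u) * (g * g) := by rw [hgc]
      _ = (c * c * u) * (g * g) := by group
      _ = _ := by rw [((huC c hc).mul_left (huC c hc)).eq]; group
  have hggC : g * g ∈ C := Subgroup.mul_self_mem_of_index_two hidx g
  have hcomm2 : Commute u (c * c * (g * g)) := (((huC c hc).mul_left (huC c hc)).mul_left (huC _ hggC)).symm
  have hcomm3 : Commute (c * c) (g * g) := (hgg.mul_right hgg).symm
  have e2 : (c * g) ^ 4 = u * u := by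
    calc (c * g) ^ 4 = ((c * g) * (c * g)) ^ 2 := by rw [← pow_two, ← pow_mul]
      _ = u * u := by
        rw [e1, hcomm2.mul_pow, hcomm3.mul_pow, ← pow_two c, ← pow_two g, ← pow_mul, ← pow_mul, h4 c, h4 g, one_mul,
          mul_one, pow_two]
  rw [h4, hu2] at e2
  exact ht2 e2.symm

end Cfsg.Agent.GeomClasses.SpCases
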