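import Cfsg.Agent.GeomClasses.SpCases.Cases
import Cfsg.Agent.GeomClasses.SpCases.TwoGroup
import Cfsg.Agent.GeomClasses.Aschbacher.Rel.FullCard
import Cfsg.Agent.Forms.SympBridge

/-! # Groups of symplectic type inside symplectic groups -/

set_option autoImplicit false
set_option linter.unusedSectionVars false

namespace Cfsg.Agent.GeomClasses.SpCases

open Matrix Cfsg.Geo Cfsg.Agent.Forms
open scoped commutatorElement

variable {F : Type*} [Field F] [Fintype F] {m : ℕ}

local notation "ι" => (Fin m ⊕ Fin m)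
local notation "V" => (Fin m ⊕ Fin m → F)
local notation "Mx" => Matrix (Fin m ⊕ Fin m) (Fin m ⊕ Fin m) F
local notation "GLV" => GL (Fin m ⊕ Fin m) F
local notation "fm" => Cfsg.sympForm m F
local notation "BB" => sympB m F

theorem full_of_absIrred (hm : 1 ≤ m) {R : Subgroup GLV} (hR : ActsAbsolutelyIrreducibly (matrixSet R)) :
    AschRel.Full R := by
  classical
  haveI : Nonempty ι := ⟨Sum.inl ⟨0, by omega⟩⟩
  haveI : Nontrivial V := Function.nontrivial
  set S : Set (Module.End F V)ˣ := AschRel.gu '' (R : Set _) with hS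
  have hirr : Asch.Irr ((fun g : (Module.End F V)ˣ => (g : Module.End F V)) '' S) := by
    intro W hW
    refine hR.1 W ?_
    rintro _ ⟨g, hg, rfl⟩ _ ⟨w, hw, rfl⟩
    exact hW _ ⟨AschRel.gu g, ⟨g, hg, rfl⟩, rfl⟩ w hw
  set A := AschRel.env R
  have hSA : ∀ u ∈ S, Asch.Normalises A u := by
    rintro _ ⟨g, hg, rfl⟩
    exact AschRel.normalises_env (fun a ha x hx => mul_mem (mul_mem ha hx) (inv_mem ha)) hg
  have hcent : ∀ X : Module.End F V, (∀ a ∈ A, Commute X a) → ∃ c : F, X = algebraMap F _ c := by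
    intro X hX
    obtain ⟨c, hc⟩ := hR.2 (LinearMap.toMatrix' X) (by
      rintro _ ⟨g, hg, rfl⟩
      show LinearMap.toMatrix' X * (g : Mx) = (g : Mx) * LinearMap.toMatrix' X
      rw [← LinearMap.toMatrix'_toLin' (g : Mx), ← LinearMap.toMatrix'_mul, ← LinearMap.toMatrix'_mul]
      exact congrArg _ (hX _ (AschRel.mem_env hg)).eq)
    refine ⟨c, LinearMap.toMatrix'.injective ?_⟩
    rw [hc, Algebra.algebraMap_eq_smul_one, map_smul]
    congr 1
    exact LinearMap.toMatrix'_id.symm
  haveI := Asch.isSemisimple A S hSA hirr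
  obtain ⟨d, e, φA, φC, hd, he, hrange, hAC, hde, -⟩ := Asch.central_type A (fun X h1 _ => hcent X h1)
  have hrA : Set.range φA = (A : Set _) := by rw [← hrange]; rfl
  rcases (show e = 1 ∨ 2 ≤ e by omega) with rfl | he2
  · refine AschRel.op_span_eq_top (Algebra.eq_top_iff.mpr fun X => ?_)
    haveI : Nonempty (Fin d) := ⟨⟨0, hd⟩⟩
    have hfr : Module.finrank F (Matrix (Fin d) (Fin d) F) = Module.finrank F (Module.End F V) := by
      rw [Module.finrank_matrix, Module.finrank_linearMap, Fintype.card_fin, Module.finrank_self]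
      rw [mul_one] at hde
      rw [hde, mul_one]
    have hinj : Function.Injective φA := RingHom.injective φA.toRingHom
    obtain ⟨Y, hY⟩ := (LinearMap.injective_iff_surjective_of_finrank_eq_finrank hfr (f := φA.toLinearMap)).mp hinj X
    rw [← hY]
    exact hrA.subset ⟨Y, rfl⟩
  exfalso
  haveI : Nonempty (Fin e) := ⟨⟨0, he⟩⟩
  have hinjC : Function.Injective φC := RingHom.injective φC.toRingHom
  let i : Fin e := ⟨0, he⟩
  let j : Fin e := ⟨1, by omega⟩
  obtain ⟨c, hc⟩ := hcent (φC (Matrix.single i j 1)) fun a ha => by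
    obtain ⟨Y, rfl⟩ : a ∈ Set.range φA := hrA ▸ ha
    exact (hAC Y _).symm
  rw [← φC.commutes] at hc
  have h := congrFun (congrFun (hinjC hc) i) j
  simp [Matrix.algebraMap_matrix_apply, i, j, Fin.ext_iff] at h

/-- The degree of a group of symplectic type of minimal exponent. -/
theorem symp_degree (hm : 1 ≤ m) {R : Subgroup GLV} {k : ℕ} (hst : IsSymplecticTypeGroup 2 R)
    (habs : ActsAbsolutelyIrreducibly (matrixSet R)) (hcard : Nat.card R = 2 ^ (1 + 2 * k))
    (hz : Nat.card (Subgroup.center R) = 2) : 2 * m = 2 ^ k := by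
  haveI : Nonempty ι := ⟨Sum.inl ⟨0, by omega⟩⟩
  have hfull := full_of_absIrred hm habs
  have h4 : ∀ x : R, x ^ 4 = 1 := fun x => by
    have h := Monoid.pow_exponent_eq_one x
    rwa [hst.exponent_eq, Nat.gcd_self] at h
  have htw := twist_of_cyclic hst.pGroup h4 hst.cyclic_of_characteristic hz
  obtain ⟨w, -, hq, -⟩ := AschRel.full_basis hfull fun a ha b hb => (AschRel.center_iff hfull _).mp
    (htw (Subgroup.commutator_mem_commutator (Subgroup.mem_top (⟨a, ha⟩ : R)) (Subgroup.mem_top (⟨b, hb⟩ : R))))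
  have h1 := Subgroup.card_eq_card_quotient_mul_card_subgroup (Subgroup.center R)
  rw [hcard, hz, hq, Fintype.card_sum, Fintype.card_fin] at h1
  refine Nat.mul_self_inj.mp ?_
  rw [show 2 ^ (1 + 2 * k) = 2 ^ k * 2 ^ k * 2 by ring] at h1
  rw [two_mul]
  omega

theorem scalar_of_spT {x : GLV} (h : ∀ v : V, x * spT v (1 : F) = spT v (1 : F) * x) :
    ∃ c : F, (x : Mx) = c • (1 : Mx) := by
  refine eq_smul_one_of_eigen _ fun v => ?_
  rcases eq_or_ne v 0 with rfl | hv0
  · exact ⟨0, by simp⟩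
  obtain ⟨u, hu⟩ := exists_one (neg_ne_zero.mpr hv0 : -v ≠ 0)
  have huv : BB u v = 1 := by rw [map_neg, LinearMap.neg_apply] at hu; rw [sympB_skew]; exact hu
  have h1 := congrArg (fun g : GLV => (g : Mx) *ᵥ u) (h v)
  simp only [Units.val_mul, ← Matrix.mulVec_mulVec, spT_mulVec, one_mul, Matrix.mulVec_add, Matrix.mulVec_smul, huv,
    one_smul, add_right_inj] at h1
  exact ⟨_, h1⟩

theorem perfect_spGL (h : 3 ≤ m ∨ (m = 2 ∧ 3 ≤ Fintype.card F)) : commutator ↥(Cfsg.spGL m F) = ⊤ := by
  have hn : Module.finrank F V = 2 * m := by simp [two_mul]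
  have h' : commutator (altGroup (sympB m F)) = ⊤ := by
    refine alt_perfect sympB_isAlt isForm_symp (Or.inr ?_)
    rcases h with h | ⟨h, hq⟩
    · exact ⟨by omega, Or.inl (by omega)⟩
    · exact ⟨by omega, Or.inr (exists_ne_zero_one hq)⟩
  let e : ↥(Cfsg.spGL m F) ≃* altGroup (sympB m F) := spGLEquiv m F
  have hmap := Subgroup.map_commutator (⊤ : Subgroup ↥(Cfsg.spGL m F)) ⊤ e.toMonoidHom
  rw [Subgroup.map_top_of_surjective e.toMonoidHom e.surjective, ← commutator_def, ← commutator_def, h'] at hmap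
  exact Subgroup.map_injective (f := e.toMonoidHom) e.injective
    (hmap.trans (Subgroup.map_top_of_surjective e.toMonoidHom e.surjective).symm)

theorem similarity_normalises {x g : GLV} (hx : x ∈ similarityGroup fm) (hg : g ∈ Cfsg.spGL m F) :
    x * g * x⁻¹ ∈ Cfsg.spGL m F := by
  obtain ⟨μ, hμ⟩ := hx
  obtain ⟨ν, hν⟩ := inv_mem (show x ∈ similarityGroup fm from ⟨μ, hμ⟩)
  have hg' : ∀ u v : V, fm ((g : Mx) *ᵥ u) ((g : Mx) *ᵥ v) = fm u v := hg
  intro u v
  have hμν : (μ : F) * ν * fm u v = fm u v := by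
    have h1 := hμ ((((x⁻¹ : GLV)) : Mx) *ᵥ u) ((((x⁻¹ : GLV)) : Mx) *ᵥ v)
    rw [hν, Matrix.mulVec_mulVec, Matrix.mulVec_mulVec, Units.mul_inv, Matrix.one_mulVec, Matrix.one_mulVec] at h1
    rw [mul_assoc]; exact h1.symm
  show fm (((x * g * x⁻¹ : GLV) : Mx) *ᵥ u) (((x * g * x⁻¹ : GLV) : Mx) *ᵥ v) = fm u v
  rw [Units.val_mul, Units.val_mul, ← Matrix.mulVec_mulVec, ← Matrix.mulVec_mulVec, ← Matrix.mulVec_mulVec,
    ← Matrix.mulVec_mulVec, hμ, hg', hν, ← mul_assoc, hμν]

theorem symp_type_not_full (h : 3 ≤ m ∨ (m = 2 ∧ 3 ≤ Fintype.card F)) {R : Subgroup GLV}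
    (hst : IsSymplecticTypeGroup 2 R) (hsim : R ≤ similarityGroup fm) (hnz : 2 < Nat.card R)
    (hz : Nat.card (Subgroup.center R) = 2) : ¬ Cfsg.spGL m F ≤ subgroupNormalizer R := by
  intro hle
  haveI : Fact (Nat.Prime 2) := ⟨Nat.prime_two⟩
  have hm : 2 ≤ m := by omega
  haveI : Nonempty (Fin m) := ⟨⟨0, by omega⟩⟩
  have hperf := perfect_spGL h
  have hperf' : commutator (altGroup (sympB m F)) = ⊤ := by
    have hn : Module.finrank F V = 2 * m := by simp [two_mul]
    refine alt_perfect sympB_isAlt isForm_symp (Or.inr ?_)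
    rcases h with h | ⟨h, hq⟩
    · exact ⟨by omega, Or.inl (by omega)⟩
    · exact ⟨by omega, Or.inr (exists_ne_zero_one hq)⟩
  set I := Cfsg.spGL m F
  let N : Subgroup I := R.subgroupOf I
  haveI : N.Normal := ⟨fun n hn g => by
    show (g : GLV) * n * (g : GLV)⁻¹ ∈ R
    exact (Subgroup.mem_normalizer_iff.mp (hle g.2) _).mp hn⟩
  let e : ↥I ≃* altGroup (sympB m F) := spGLEquiv m F
  haveI := alt_simple (sympB_isAlt (m := m) (F := F)) isForm_symp hperf'
  haveI hsimple : IsSimpleGroup (↥I ⧸ Subgroup.center ↥I) := (centerQuotientCongr e).isSimpleGroup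
  let π := QuotientGroup.mk' (Subgroup.center ↥I)
  have hN : N ≤ Subgroup.center ↥I := by
    rcases (Subgroup.Normal.map (H := N) inferInstance π (QuotientGroup.mk'_surjective _)).eq_bot_or_eq_top with h1 | h1
    · rwa [Subgroup.map_eq_bot_iff, QuotientGroup.ker_mk'] at h1
    · exfalso
      have hp : IsPGroup 2 (N.map π) :=
        (hst.pGroup.comap_of_injective I.subtype Subtype.val_injective).map π
      rw [h1] at hp
      have hq : IsPGroup 2 (↥I ⧸ Subgroup.center ↥I) := hp.of_equiv Subgroup.topEquiv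
      haveI := hq.isNilpotent
      have hperfq : commutator (↥I ⧸ Subgroup.center ↥I) = ⊤ := by
        rw [commutator_def, ← Subgroup.map_top_of_surjective π (QuotientGroup.mk'_surjective _), ← Subgroup.map_commutator,
          ← commutator_def, hperf]
      exact IsSimpleGroup.comm_iff_isSolvable.mpr inferInstance |> fun hc => by
        haveI : Nontrivial (↥I ⧸ Subgroup.center ↥I) := IsSimpleGroup.toNontrivial
        have : commutator (↥I ⧸ Subgroup.center ↥I) = ⊥ := by
          rw [commutator_def, Subgroup.commutator_eq_bot_iff_le_centralizer]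
          intro a _
          exact Subgroup.mem_centralizer_iff.mpr fun b _ => hc b a
        exact bot_ne_top (this.symm.trans hperfq)
  have hsc : ∀ x : R, x ∈ Subgroup.center R := by
    intro x
    have hcomm : ∀ g : ↥I, ∃ z ∈ Subgroup.center ↥I, ((z : ↥I) : GLV) = (g : GLV) * x * (g : GLV)⁻¹ * (x : GLV)⁻¹ := by
      intro g
      have h1 : (g : GLV) * x * (g : GLV)⁻¹ * (x : GLV)⁻¹ ∈ R :=
        mul_mem ((Subgroup.mem_normalizer_iff.mp (hle g.2) _).mp x.2) (inv_mem x.2)
      have h2 : (g : GLV) * x * (g : GLV)⁻¹ * (x : GLV)⁻¹ ∈ I := by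
        rw [mul_assoc (g : GLV), mul_assoc (g : GLV)]
        exact mul_mem g.2 (similarity_normalises (hsim x.2) (inv_mem g.2))
      exact ⟨⟨_, h2⟩, hN h1, rfl⟩
    choose z hz hzeq using hcomm
    let φ : ↥I →* Subgroup.center ↥I := MonoidHom.mk' (fun g => ⟨z g, hz g⟩) fun g g' => Subtype.ext (Subtype.ext (by
      show (z (g * g') : GLV) = (z g : GLV) * (z g' : GLV)
      have hc : (g : GLV) * (z g' : GLV) = (z g' : GLV) * g := congrArg Subtype.val (Subgroup.mem_center_iff.mp (hz g') g)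
      have hc2 : (z g : GLV) * (z g' : GLV) = (z g' : GLV) * (z g : GLV) :=
        congrArg Subtype.val (Subgroup.mem_center_iff.mp (hz g') (z g))
      calc (z (g * g') : GLV) = (g : GLV) * (z g' : GLV) * ((x : GLV) * (g : GLV)⁻¹ * (x : GLV)⁻¹) := by
            rw [hzeq, hzeq]; push_cast; group
        _ = (z g' : GLV) * (z g : GLV) := by rw [hc, hzeq g]; group
        _ = _ := hc2.symm))
    letI : CommGroup (Subgroup.center ↥I) :=
      { (inferInstance : Group (Subgroup.center ↥I)) with mul_comm := fun u v => Subtype.ext (Subgroup.mem_center_iff.mp v.2 u) }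
    have hker : ∀ g, φ g = 1 := fun g => MonoidHom.mem_ker.mp (Abelianization.commutator_subset_ker φ (hperf.ge trivial))
    obtain ⟨c, hc⟩ := scalar_of_spT (x := (x : GLV)) fun v => by
      have h1 := congrArg (fun u : Subgroup.center ↥I => ((u : ↥I) : GLV)) (hker ⟨spT v 1, spT_mem v 1⟩)
      change (z _ : GLV) = 1 at h1
      rw [hzeq] at h1
      exact (mul_inv_eq_iff_eq_mul.mp (mul_inv_eq_one.mp h1)).symm
    refine Subgroup.mem_center_iff.mpr fun y => Subtype.ext (Units.ext ?_)
    simp only [Subgroup.coe_mul, Units.val_mul, hc, Matrix.mul_smul, Matrix.smul_mul, mul_one, one_mul]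
  have : Subgroup.center R = ⊤ := eq_top_iff.mpr fun x _ => hsc x
  rw [this, Subgroup.card_top] at hz
  omega

end Cfsg.Agent.GeomClasses.SpCases
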