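import Cfsg.Agent.GeomClasses.SpCases.Arith
import Cfsg.Agent.GeomClasses.TensorFrameThree
import Cfsg.Agent.GeomClasses.DecompTools

/-! # Tensor decompositions of symplectic forms -/

set_option autoImplicit false
set_option linter.unusedSectionVars false

namespace Cfsg.Agent.GeomClasses.SpCases

open Matrix Cfsg.Geo Cfsg.Agent.Forms Cfsg.Agent.GeomClasses Cfsg.Agent.GeomClasses.TensorFrame
open scoped Kronecker

variable {F : Type*} [Field F] {m : ℕ}

local notation "V" => (Fin m ⊕ Fin m → F)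
local notation "Mx" => Matrix (Fin m ⊕ Fin m) (Fin m ⊕ Fin m) F
local notation "GLV" => GL (Fin m ⊕ Fin m) F
local notation "BB" => sympB m F

theorem coord_injective {a b : ℕ} (e : (Fin m ⊕ Fin m) ≃ Fin a × Fin b) (P : GLV) :
    Function.Injective (coord e P) := by
  intro x y h
  have h1 := congrArg (((P⁻¹ : GLV) : Mx) *ᵥ ·) h
  simp only [coord_apply, Matrix.mulVec_mulVec, Units.inv_mul, Matrix.one_mulVec] at h1
  funext i
  simpa using congrFun h1 (e.symm i)

theorem form_tens {a b : ℕ} {e : (Fin m ⊕ Fin m) ≃ Fin a × Fin b} {P : GLV}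
    {f₁ : (Fin a → F) → (Fin a → F) → F} {f₂ : (Fin b → F) → (Fin b → F) → F}
    (hf₁ : IsSymplecticForm f₁) (hf₂ : IsSymmetricForm f₂)
    (hT : IsTensorFormStructure id (Cfsg.sympForm m F) f₁ f₂ e P) :
    ∃ c : F, c ≠ 0 ∧ ∀ x y u v, BB (coord e P (tens x u)) (coord e P (tens y v)) = c * (f₁ x y * f₂ u v) := by
  obtain ⟨c, hc, hform⟩ := hT
  refine ⟨c, hc, fun x y u v => ?_⟩
  rw [sympB_apply, coord_apply, coord_apply, hform, formOfGram_tens (fun a b => rfl),
    ← eq_formOfGram (σ := id) f₁ hf₁.bilinear.add_left hf₁.bilinear.smul_left hf₁.bilinear.add_right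
      (fun s v x => hf₁.bilinear.smul_right s v x),
    ← eq_formOfGram (σ := id) f₂ hf₂.bilinear.add_left hf₂.bilinear.smul_left hf₂.bilinear.add_right
      (fun s v x => hf₂.bilinear.smul_right s v x)]

theorem exists_dual {d : ℕ} {f : (Fin d → F) → (Fin d → F) → F} (hb : IsBilinearForm f)
    (hn : IsNondegenerateForm f) (hd : 2 ≤ d) :
    ∃ a a', a ≠ 0 ∧ a' ∉ Submodule.span F {a} ∧ f a a' = 1 := by
  let a : Fin d → F := Pi.single ⟨0, by omega⟩ 1
  have ha : a ≠ 0 := by simp [a]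
  obtain ⟨x, hx⟩ := (hn a ha).2
  let L : (Fin d → F) →ₗ[F] F :=
    { toFun := f a, map_add' := hb.add_right a, map_smul' := fun c y => hb.smul_right c a y }
  have hne : ∃ z, z ∉ Submodule.span F {a} ∧ L z ≠ 0 := by
    by_cases hxs : x ∈ Submodule.span F {a}
    · obtain ⟨z, hz⟩ : ∃ z, z ∉ Submodule.span F {a} := by
        by_contra h
        push Not at h
        have := Submodule.finrank_mono (show (⊤ : Submodule F (Fin d → F)) ≤ Submodule.span F {a} from fun v _ => h v)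
        rw [finrank_top, Module.finrank_fin_fun, finrank_span_singleton ha] at this
        omega
      by_cases hz0 : L z = 0
      · refine ⟨z + x, fun h => hz ?_, ?_⟩
        · simpa using Submodule.sub_mem _ h hxs
        · rw [map_add, hz0, zero_add]; exact hx
      · exact ⟨z, hz, hz0⟩
    · exact ⟨x, hxs, hx⟩
  obtain ⟨z, hz, hLz⟩ := hne
  refine ⟨a, (L z)⁻¹ • z, ha, fun h => hz ?_, ?_⟩
  · exact (Submodule.smul_mem_iff _ (inv_ne_zero hLz)).mp h
  · show L ((L z)⁻¹ • z) = 1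
    rw [map_smul, smul_eq_mul, inv_mul_cancel₀ hLz]

theorem tensor_not_full {a b : ℕ} (ha : 2 ≤ a) (hb : 2 ≤ b) {e : (Fin m ⊕ Fin m) ≃ Fin a × Fin b} {P : GLV}
    {f₁ : (Fin a → F) → (Fin a → F) → F} {f₂ : (Fin b → F) → (Fin b → F) → F}
    (hf₁ : IsSymplecticForm f₁) (hf₂ : IsSymmetricForm f₂)
    (hT : IsTensorFormStructure id (Cfsg.sympForm m F) f₁ f₂ e P) :
    ¬ Cfsg.spGL m F ≤ tensorProductSubgroup a b e P := by
  intro hle
  obtain ⟨c, hc, hB⟩ := form_tens hf₁ hf₂ hT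
  obtain ⟨x, x', hx0, hxx, hfx⟩ := exists_dual hf₁.bilinear hf₁.nondegenerate ha
  obtain ⟨u, u', hu0, huu, hfu⟩ := exists_dual hf₂.bilinear hf₂.nondegenerate hb
  obtain ⟨A, B, h⟩ := mem_tensor_iff_action (hle (spT_mem (coord e P (tens x' u')) (1 : F)))
  set x₁ := (A : Matrix (Fin a) (Fin a) F) *ᵥ x
  set u₁ := (B : Matrix (Fin b) (Fin b) F) *ᵥ u
  have h1 := h x u
  rw [spT_mulVec, one_mul, hB, hfx, hfu, mul_one, mul_one, ← map_smul, ← map_add] at h1
  have h2 : tens x u + c • tens x' u' = tens x₁ u₁ := coord_injective e P h1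
  have slice : ∀ w : Fin b → F, (w ⬝ᵥ u) • x + (c * (w ⬝ᵥ u')) • x' = (w ⬝ᵥ u₁) • x₁ := by
    intro w
    funext i
    have := congrArg (fun z => ∑ j, w j * z (i, j)) h2
    simp only [Pi.add_apply, Pi.smul_apply, tens, smul_eq_mul, mul_add, Finset.sum_add_distrib] at this
    simp only [Pi.add_apply, Pi.smul_apply, smul_eq_mul, dotProduct, Finset.mul_sum, Finset.sum_mul]
    refine Eq.trans ?_ (this.trans (Finset.sum_congr rfl fun j _ => by ring))
    congr 1 <;> exact Finset.sum_congr rfl fun j _ => by ring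
  obtain ⟨w', hw', hw'u⟩ := exists_dot huu
  obtain ⟨w, hw, hwu⟩ := exists_dot (show u ∉ Submodule.span F {u'} from fun h => by
    obtain ⟨s, rfl⟩ := Submodule.mem_span_singleton.mp h
    have hs : s ≠ 0 := fun hs => hu0 (by rw [hs, zero_smul])
    exact huu (Submodule.mem_span_singleton.mpr ⟨s⁻¹, by rw [smul_smul, inv_mul_cancel₀ hs, one_smul]⟩))
  have e1 := slice w
  rw [hwu, hw u' (Submodule.mem_span_singleton_self _), one_smul, mul_zero, zero_smul, add_zero] at e1
  have e2 := slice w'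
  rw [hw'u, hw' u (Submodule.mem_span_singleton_self _), zero_smul, zero_add, mul_one] at e2
  have hw1 : w ⬝ᵥ u₁ ≠ 0 := fun h0 => hx0 (by rw [e1, h0, zero_smul])
  refine hxx (Submodule.mem_span_singleton.mpr ⟨c⁻¹ * (w' ⬝ᵥ u₁) * (w ⬝ᵥ u₁)⁻¹, ?_⟩)
  rw [e1, smul_smul, mul_assoc, inv_mul_cancel₀ hw1, mul_one, ← smul_smul, ← e2, smul_smul, inv_mul_cancel₀ hc, one_smul]

/-- Over three elements a three-dimensional orthogonal factor gives no maximal subgroup. -/
theorem tensor_three_false [Fintype F] (hF : Fintype.card F = 3) {H : Subgroup GLV} (hH : IsMaximalIn (Cfsg.spGL m F) H)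
    {a : ℕ} (ha : 0 < a) {e : (Fin m ⊕ Fin m) ≃ Fin a × Fin 3} {P : GLV}
    {f₁ : (Fin a → F) → (Fin a → F) → F} {f₂ : (Fin 3 → F) → (Fin 3 → F) → F}
    (hf₁ : IsSymplecticForm f₁) (hf₂ : IsSymmetricForm f₂)
    (hT : IsTensorFormStructure id (Cfsg.sympForm m F) f₁ f₂ e P)
    (hle : H ≤ tensorProductSubgroup a 3 e P) : False := by
  obtain ⟨K, h1, h2⟩ := TensorFrameThree.exists_between_symp hF ha e P f₁ f₂ hf₁ hf₂ hT
  have h3 : H < K := lt_of_le_of_lt (le_inf hle hH.1.le) h1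
  rcases hH.2 K h3.le h2.le with h | h
  · exact h3.ne h.symm
  · exact h2.ne h

end Cfsg.Agent.GeomClasses.SpCases
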